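import Mathlib

/-! Feit–Higman, algebraic part: the multiplicity formula in the Hecke algebra of a dihedral
group acting by matrices. -/

set_option autoImplicit false

namespace H2.FH

open Real

variable {X : Type*} [Fintype X] [DecidableEq X]

theorem trace_idem (E : Matrix X X ℝ) (h : E * E = E) : ∃ n : ℕ, E.trace = n := by
  have h1 : IsIdempotentElem (Matrix.toLin' E) := by
    show Matrix.toLin' E * Matrix.toLin' E = _
    rw [Module.End.mul_eq_comp, ← Matrix.toLin'_mul, h]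
  have h2 := (LinearMap.isProj_range_iff_isIdempotentElem (Matrix.toLin' E)).2 h1
  exact ⟨_, by rw [← Matrix.trace_toLin'_eq E]; exact h2.trace⟩

/-- The words `B k = (1+s)(ts)^k(1+t)`. -/
def Bw (s t : Matrix X X ℝ) (k : ℕ) : Matrix X X ℝ := (1 + s) * (t * s) ^ k * (1 + t)

def Dw (a b : ℝ) (s t : Matrix X X ℝ) (k : ℕ) : Matrix X X ℝ :=
  (a * b) • Bw s t k - Bw s t (k + 1)

def Yw (a b : ℝ) (s t : Matrix X X ℝ) : Matrix X X ℝ := (1 + s) * (1 + t) - (a + b) • 1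

section
variable {a b : ℝ} {s t : Matrix X X ℝ}

theorem Ss (hs : s * s = (a - 1) • s + a • 1) : (1 + s) * s = a • (1 + s) := by
  rw [add_mul, one_mul, hs]; module

theorem tT (ht : t * t = (b - 1) • t + b • 1) : t * (1 + t) = b • (1 + t) := by
  rw [mul_add, mul_one, ht]; module

theorem Y_S (hs : s * s = (a - 1) • s + a • 1) :
    Yw a b s t * (1 + s) = (1 - b) • (1 + s) + (1 + s) * t + (1 + s) * (t * s) := by
  have h := Ss hs
  have : (1 + s) * (1 + t) * (1 + s) = (1 + s) + (1 + s) * s + (1 + s) * t + (1 + s) * (t * s) := by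
    noncomm_ring
  rw [Yw, sub_mul, this, h, smul_mul_assoc, one_mul]; module

theorem Y_B (hs : s * s = (a - 1) • s + a • 1) (k : ℕ) :
    Yw a b s t * Bw s t k =
      (1 - b) • Bw s t k + (1 + s) * t * (t * s) ^ k * (1 + t) + Bw s t (k + 1) := by
  simp only [Bw]
  rw [← mul_assoc, ← mul_assoc, Y_S hs, pow_succ']
  simp only [add_mul, smul_mul_assoc, mul_assoc]

theorem Y_B0 (hs : s * s = (a - 1) • s + a • 1) (ht : t * t = (b - 1) • t + b • 1) :
    Yw a b s t * Bw s t 0 = Bw s t 0 + Bw s t 1 := by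
  rw [Y_B hs, pow_zero, mul_one, mul_assoc, tT ht, mul_smul_comm]
  simp only [Bw, pow_zero, mul_one, zero_add]; module

theorem Y_Bs (hs : s * s = (a - 1) • s + a • 1) (ht : t * t = (b - 1) • t + b • 1) (k : ℕ) :
    Yw a b s t * Bw s t (k + 1) = Bw s t (k + 2) + (a * b) • Bw s t k := by
  rw [Y_B hs]
  have : (1 + s) * t * (t * s) ^ (k + 1) * (1 + t) =
      (b - 1) • Bw s t (k + 1) + (a * b) • Bw s t k := by
    have h1 : (1 + s) * t * (t * s) ^ (k + 1) = (1 + s) * (t * t) * s * (t * s) ^ k := by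
      rw [pow_succ']; noncomm_ring
    have h2 : (1 + s) * ((b - 1) • t + b • 1) * s = (b - 1) • ((1 + s) * (t * s)) + (a * b) • (1 + s) := by
      rw [mul_add, add_mul, mul_smul_comm, mul_smul_comm, smul_mul_assoc, smul_mul_assoc, mul_one,
        Ss hs, smul_smul, mul_assoc, mul_comm b a]
    rw [h1, ht, h2, Bw, Bw, pow_succ' (t * s) k]
    simp only [add_mul (_ • _), smul_mul_assoc, mul_assoc]
  rw [this]; module

theorem Y_D0 (hs : s * s = (a - 1) • s + a • 1) (ht : t * t = (b - 1) • t + b • 1) :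
    Yw a b s t * Dw a b s t 0 = Dw a b s t 1 := by
  rw [Dw, Dw, mul_sub, mul_smul_comm, Y_B0 hs ht, Y_Bs hs ht]; module

theorem Y_Ds (hs : s * s = (a - 1) • s + a • 1) (ht : t * t = (b - 1) • t + b • 1) (k : ℕ) :
    Yw a b s t * Dw a b s t (k + 1) = Dw a b s t (k + 2) + (a * b) • Dw a b s t k := by
  rw [Dw, Dw, Dw, mul_sub, mul_smul_comm, Y_Bs hs ht, Y_Bs hs ht]; module

theorem D0_eq (hs : s * s = (a - 1) • s + a • 1) (ht : t * t = (b - 1) • t + b • 1) :
    Dw a b s t 0 = ((1 + a * b) • 1 - Yw a b s t) * (Yw a b s t + (a + b) • 1) := by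
  have h : Yw a b s t + (a + b) • 1 = Bw s t 0 := by simp [Yw, Bw]
  rw [h, sub_mul, Y_B0 hs ht, smul_mul_assoc, one_mul, Dw]; module

theorem sum_sin_sq (θ : ℝ) (L : ℕ) :
    4 * sin θ * ∑ k ∈ Finset.range L, sin ((k + 1) * θ) ^ 2 =
      (2 * L + 1) * sin θ - sin ((2 * L + 1) * θ) := by
  induction L with
  | zero => simp
  | succ L ih =>
    rw [Finset.sum_range_succ, mul_add, ih]
    have e1 : (2 * (L : ℝ) + 1) * θ = 2 * ((L + 1) * θ) - θ := by ring
    have e2 : (2 * ((L + 1 : ℕ) : ℝ) + 1) * θ = 2 * ((L + 1) * θ) + θ := by push_cast; ring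
    rw [e1, e2, sin_add, sin_sub, cos_two_mul, cos_sq']
    push_cast; ring

/-- The multiplicity formula. -/
theorem mult (hs : s * s = (a - 1) • s + a • 1) (ht : t * t = (b - 1) • t + b • 1)
    {ρ θ : ℝ} (hρ : 0 < ρ) (hab : ρ ^ 2 = a * b) (hθ : sin θ ≠ 0) (K : ℕ)
    (hK : (sin ((K + 1) * θ) / ρ ^ K) • Dw a b s t (K + 1) =
      (a * b * (sin ((K + 2) * θ) / ρ ^ (K + 1))) • Dw a b s t K)
    (h0 : (Bw s t 0).trace = Fintype.card X)
    (h1 : ∀ k, k ≤ K → (Bw s t (k + 1)).trace = 0) {σ : ℝ} (hσ0 : σ ≠ 0)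
    (hσ : ∑ k ∈ Finset.range (K + 1), sin ((k + 1) * θ) ^ 2 = σ)
    (hδ : (1 + a * b - 2 * ρ * cos θ) * (2 * ρ * cos θ + (a + b)) ≠ 0) :
    ∃ n : ℕ, n * σ * ((1 + a * b - 2 * ρ * cos θ) * (2 * ρ * cos θ + (a + b))) =
      sin θ ^ 2 * (a * b) * Fintype.card X := by
  set x := 2 * ρ * cos θ with hx
  set δ := (1 + a * b - x) * (x + (a + b)) with hδd
  set c : ℕ → ℝ := fun k => sin ((k + 1) * θ) / ρ ^ k with hc
  have hrec : ∀ k : ℕ, c k + a * b * c (k + 2) = x * c (k + 1) := by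
    intro k
    have e1 : ((k : ℝ) + 1) * θ = ((k + 1 : ℕ) + 1) * θ - θ := by push_cast; ring
    have e2 : (((k + 2 : ℕ) : ℝ) + 1) * θ = ((k + 1 : ℕ) + 1) * θ + θ := by push_cast; ring
    simp only [hc]
    rw [e2, e1, sin_add, sin_sub, ← hab, hx]
    field_simp; ring
  have hrec0 : a * b * c 1 = x * c 0 := by
    simp only [hc]
    have e2 : (((1 : ℕ) : ℝ) + 1) * θ = 2 * θ := by push_cast; ring
    rw [e2, sin_two_mul, ← hab, hx]; simp; field_simp
  have tel : ∀ L : ℕ, Yw a b s t * (∑ k ∈ Finset.range (L + 1), c k • Dw a b s t k) =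
      x • (∑ k ∈ Finset.range (L + 1), c k • Dw a b s t k) + c L • Dw a b s t (L + 1) -
        (a * b * c (L + 1)) • Dw a b s t L := by
    intro L
    induction L with
    | zero =>
      simp only [zero_add, Finset.sum_range_one, mul_smul_comm, Y_D0 hs ht, hrec0]; module
    | succ L ih =>
      rw [Finset.sum_range_succ, mul_add, ih, mul_smul_comm, Y_Ds hs ht,
        eq_sub_of_add_eq' (hrec L)]
      module
  set M := ∑ k ∈ Finset.range (K + 1), c k • Dw a b s t k with hM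
  have hYM : Yw a b s t * M = x • M := by
    rw [hM, tel K]
    have : c K • Dw a b s t (K + 1) = (a * b * c (K + 1)) • Dw a b s t K := by
      simp only [hc]; push_cast
      rw [hK, show (K : ℝ) + 1 + 1 = K + 2 by ring]
    rw [this]; module
  have hD : ∀ k : ℕ, Dw a b s t k * M = (δ * (ρ ^ k * sin ((k + 1) * θ) / sin θ)) • M ∧
      Dw a b s t (k + 1) * M = (δ * (ρ ^ (k + 1) * sin ((k + 2) * θ) / sin θ)) • M := by
    have hD0 : Dw a b s t 0 * M = δ • M := by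
      rw [D0_eq hs ht, mul_assoc, add_mul, hYM, smul_mul_assoc, one_mul, ← add_smul,
        mul_smul_comm, sub_mul, hYM, smul_mul_assoc, one_mul, hδd]
      module
    intro k
    induction k with
    | zero =>
      constructor
      · rw [hD0]; congr 1; simp [hθ]
      · rw [← Y_D0 hs ht, mul_assoc, hD0, mul_smul_comm, hYM, smul_smul]
        congr 1
        simp only [Nat.cast_zero, zero_add, sin_two_mul, hx]; field_simp
    | succ k ih =>
      refine ⟨by rw [ih.2]; push_cast; rw [show (k : ℝ) + 1 + 1 = k + 2 by ring], ?_⟩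
      rw [eq_sub_of_add_eq (Y_Ds hs ht k).symm, sub_mul, mul_assoc, ih.2, smul_mul_assoc, ih.1,
        mul_smul_comm, hYM, smul_smul, smul_smul, ← sub_smul]
      congr 1
      have e1 : ((k : ℝ) + 1) * θ = (k + 2) * θ - θ := by ring
      have e2 : (((k + 1 : ℕ) : ℝ) + 2) * θ = (k + 2) * θ + θ := by push_cast; ring
      rw [e1, e2, sin_add, sin_sub, ← hab, hx]; field_simp; ring
  have hMM : M * M = (δ * σ / sin θ) • M := by
    conv_lhs => rw [hM, Finset.sum_mul, ← hM]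
    simp only [smul_mul_assoc, (hD _).1, smul_smul]
    rw [← Finset.sum_smul, ← hσ, Finset.mul_sum, Finset.sum_div]
    congr 1
    refine Finset.sum_congr rfl fun k _ => ?_
    simp only [hc]; field_simp
  have htr : M.trace = sin θ * (a * b) * Fintype.card X := by
    rw [hM, Matrix.trace_sum, Finset.sum_range_succ', Finset.sum_eq_zero]
    · simp [hc, Dw, h0, h1 0 (Nat.zero_le _), mul_assoc]
    · intro k hk
      have hk' := Finset.mem_range.1 hk
      simp [Dw, h1 k (by omega), h1 (k + 1) (by omega)]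
  obtain ⟨n, hn⟩ := trace_idem ((sin θ / (δ * σ)) • M) (by
    rw [smul_mul_assoc, mul_smul_comm, hMM, smul_smul, smul_smul]
    congr 1; field_simp)
  refine ⟨n, ?_⟩
  rw [Matrix.trace_smul, htr, smul_eq_mul] at hn
  rw [← hn]; field_simp

theorem trace_B (k : ℕ) : (Bw s t k).trace = ((t * s) ^ k).trace + (s * (t * s) ^ k).trace +
    (t * (s * t) ^ k).trace + ((t * s) ^ (k + 1)).trace := by
  have : Bw s t k = (t * s) ^ k + s * (t * s) ^ k + (t * s) ^ k * t + s * ((t * s) ^ k * t) := by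
    rw [Bw]; noncomm_ring
  rw [this, Matrix.trace_add, Matrix.trace_add, Matrix.trace_add, Matrix.trace_mul_comm s (_ * t),
    mul_pow_mul, pow_succ (t * s), ← mul_assoc, mul_pow_mul]

theorem D_even (hs : s * s = (a - 1) • s + a • 1) (ht : t * t = (b - 1) • t + b • 1) (k : ℕ)
    (h : (s * t) ^ (k + 1) = (t * s) ^ (k + 1)) : Dw a b s t k = 0 := by
  have h1 : Bw s t (k + 1) = (1 + s) * s * (t * s) ^ k * (t * (1 + t)) := by
    rw [Bw, ← h, pow_succ', mul_assoc s t, ← mul_pow_mul]; simp only [mul_assoc]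
  rw [Dw, h1, Ss hs, tT ht, Bw]
  simp only [smul_mul_assoc, mul_smul_comm, smul_smul, mul_comm b a, sub_self]

theorem D_odd (hs : s * s = (a - 1) • s + a • 1) (ht : t * t = (a - 1) • t + a • 1) (k : ℕ)
    (h : s * (t * s) ^ (k + 1) = t * (s * t) ^ (k + 1)) :
    Dw a a s t (k + 1) = -a • Dw a a s t k := by
  have h1 : Bw s t (k + 2) = (1 + s) * s * (t * s) ^ k * t * (s * s) * (1 + t) := by
    have : (t * s) ^ (k + 2) = s * (t * s) ^ k * t * (s * s) := by
      rw [pow_succ, ← mul_assoc, mul_pow_mul, ← h, pow_succ]; simp only [mul_assoc]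
    rw [Bw, this]; simp only [mul_assoc]
  have h2 : Bw s t (k + 2) = (a * (a - 1)) • Bw s t (k + 1) + (a * a * a) • Bw s t k := by
    rw [h1, Ss hs, hs, mul_add _ (_ • s), add_mul (_ * (_ • s)), Bw, Bw, pow_succ]
    simp only [smul_mul_assoc, mul_smul_comm, smul_smul, mul_assoc, mul_comm (a - 1) a, one_mul,
      mul_one, tT ht]
  rw [Dw, Dw, h2]; module

theorem sigma_eq {θ : ℝ} (hθ : sin θ ≠ 0) (L : ℕ) {σ : ℝ}
    (h : (2 * L + 1) * sin θ - sin ((2 * L + 1) * θ) = 4 * σ * sin θ) :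
    ∑ k ∈ Finset.range L, sin ((k + 1) * θ) ^ 2 = σ := by
  have := sum_sin_sq θ L
  rw [h] at this
  apply mul_left_cancel₀ (show 4 * sin θ ≠ 0 by positivity)
  rw [this]; ring

end

theorem delta_pos {a b ρ x : ℝ} (ha : 2 ≤ a) (hb : 2 ≤ b) (hρ : 0 < ρ) (hab : ρ ^ 2 = a * b)
    (hx : x ^ 2 < 4 * (a * b)) :
    0 < 2 * ρ - x ∧ 0 < 2 * ρ + x ∧ 2 * ρ < 1 + a * b ∧ 2 * ρ ≤ a + b := by
  have h := abs_lt.1 (abs_lt_of_sq_lt_sq (show x ^ 2 < (2 * ρ) ^ 2 by nlinarith) (by positivity))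
  refine ⟨by linarith [h.2], by linarith [h.1], ?_, ?_⟩
  · have : 2 ≤ ρ := by nlinarith
    nlinarith
  · exact (abs_le.1 (abs_le_of_sq_le_sq' (show (2 * ρ) ^ 2 ≤ (a + b) ^ 2 by
      nlinarith [sq_nonneg (a - b)]) (by linarith) |> abs_le.2)).2

theorem r_bounds {a b ρ x r : ℝ} (ha : 2 ≤ a) (hb : 2 ≤ b) (hρ : 0 < ρ) (hab : ρ ^ 2 = a * b)
    (hx : x ^ 2 < 4 * (a * b)) (hr : r * ((1 + a * b - x) * (x + (a + b))) = 4 * (a * b) - x ^ 2) :
    0 < r ∧ r < 1 := by
  obtain ⟨h1, h2, h3, h4⟩ := delta_pos ha hb hρ hab hx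
  have e : 4 * (a * b) - x ^ 2 = (2 * ρ - x) * (2 * ρ + x) := by nlinarith
  have hlt : (2 * ρ - x) * (2 * ρ + x) < (1 + a * b - x) * (x + (a + b)) :=
    mul_lt_mul (by linarith) (by linarith) h2 (by linarith)
  have hp : 0 < (2 * ρ - x) * (2 * ρ + x) := mul_pos h1 h2
  rw [e] at hr
  constructor
  · by_contra h
    nlinarith
  · by_contra h
    nlinarith

theorem rat_odd {a : ℕ} {x : ℝ} {r : ℚ} (ha : 2 ≤ (a : ℝ)) (hx : x ^ 2 < 4 * (a * a))
    (hr : r * ((1 + a * a - x) * (x + (a + a))) = 4 * (a * a) - x ^ 2) : ∃ q : ℚ, x = q := by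
  obtain ⟨h1, h2, h3, h4⟩ := delta_pos ha ha (by linarith : (0 : ℝ) < a) (by ring) hx
  obtain ⟨-, h5⟩ := r_bounds ha ha (by linarith : (0 : ℝ) < a) (by ring) hx hr
  have e : (r : ℝ) * (1 + a * a - x) = 2 * a - x := by
    apply mul_right_cancel₀ h2.ne'
    nlinarith
  refine ⟨(2 * a - r * (1 + a * a)) / (1 - r), ?_⟩
  push_cast
  rw [eq_div_iff (by linarith)]
  linarith

theorem rat_even {a b : ℕ} {ρ x : ℝ} {r r' : ℚ} (ha : 2 ≤ (a : ℝ)) (hb : 2 ≤ (b : ℝ)) (hρ : 0 < ρ)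
    (hab : ρ ^ 2 = a * b) (hx : x ^ 2 < 4 * (a * b))
    (hr : r * ((1 + a * b - x) * (x + (a + b))) = 4 * (a * b) - x ^ 2)
    (hr' : r' * ((1 + a * b - -x) * (-x + (a + b))) = 4 * (a * b) - (-x) ^ 2) : ∃ q : ℚ, x = q := by
  obtain ⟨h1, h2⟩ := r_bounds ha hb hρ hab hx hr
  obtain ⟨h3, h4⟩ := r_bounds ha hb hρ hab (by rwa [neg_sq]) hr'
  have hp : (0 : ℝ) < (a - 1) * (b - 1) * (r * (1 - r') + r' * (1 - r)) := by
    have : (0 : ℝ) < r * (1 - r') := mul_pos h1 (by linarith)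
    have : (0 : ℝ) < r' * (1 - r) := mul_pos h3 (by linarith)
    exact mul_pos (mul_pos (by linarith) (by linarith)) (by linarith)
  refine ⟨((1 - r) * (r' * (a + b) * (1 + a * b) - 4 * (a * b)) -
    (1 - r') * (r * (a + b) * (1 + a * b) - 4 * (a * b))) /
      ((a - 1) * (b - 1) * (r * (1 - r') + r' * (1 - r))), ?_⟩
  push_cast
  rw [eq_div_iff hp.ne']
  linear_combination (1 - r') * hr - (1 - r) * hr'

/-- Niven: if `cos (2π/n)` is rational then `n ∈ {1,2,3,4,6}`. -/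
theorem niven' {n : ℕ} (hn : 0 < n) (h : ∃ q : ℚ, cos (2 * π / n) = q) :
    n = 1 ∨ n = 2 ∨ n = 3 ∨ n = 4 ∨ n = 6 := by
  have h1 := niven ⟨2 / n, by push_cast; ring⟩ h
  have key : ∀ y : ℝ, 0 ≤ y → 0 ≤ 2 * π / n → ∀ z, y < z → z ≤ π → cos z < cos y :=
    fun y hy _ z hz hz' => cos_lt_cos_of_nonneg_of_le_pi hy hz' hz
  have hpos : 0 < 2 * π / n := by positivity
  simp only [Set.mem_insert_iff, Set.mem_singleton_iff] at h1
  by_cases h7 : 7 ≤ n
  · exfalso
    have h7' : (7 : ℝ) ≤ n := by exact_mod_cast h7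
    have hlt : 2 * π / n < π / 3 := by
      rw [div_lt_div_iff₀ (by positivity) (by norm_num)]; nlinarith [pi_pos]
    have a1 := cos_lt_cos_of_nonneg_of_le_pi hpos.le (by linarith [pi_pos]) hlt
    have a2 := cos_lt_cos_of_nonneg_of_le_pi le_rfl (by linarith [pi_pos]) hpos
    rw [cos_pi_div_three] at a1
    rw [cos_zero] at a2
    rcases h1 with h1 | h1 | h1 | h1 | h1 <;> linarith
  by_cases h5 : n = 5
  · exfalso
    subst h5
    have a1 := cos_lt_cos_of_nonneg_of_le_pi (x := π / 3) (y := 2 * π / (5 : ℕ)) (by positivity)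
      (by push_cast; linarith [pi_pos]) (by push_cast; linarith [pi_pos])
    have a2 := cos_lt_cos_of_nonneg_of_le_pi (x := 2 * π / (5 : ℕ)) (y := π / 2) (by positivity)
      (by linarith [pi_pos]) (by push_cast; linarith [pi_pos])
    rw [cos_pi_div_three] at a1
    rw [cos_pi_div_two] at a2
    rcases h1 with h1 | h1 | h1 | h1 | h1 <;> linarith
  omega

theorem x_sq_lt {a b ρ θ : ℝ} (hρ : 0 < ρ) (hab : ρ ^ 2 = a * b) (hθ : sin θ ≠ 0) :
    (2 * ρ * cos θ) ^ 2 < 4 * (a * b) := by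
  have := sq_pos_of_ne_zero hθ
  have h2 := sin_sq_add_cos_sq θ
  have : 0 < ρ ^ 2 * sin θ ^ 2 := by positivity
  rw [← hab]; nlinarith

/-- rational form of the multiplicity formula -/
theorem mult' [Nonempty X] {a b : ℝ} {s t : Matrix X X ℝ} (ha : 2 ≤ a) (hb : 2 ≤ b)
    (hs : s * s = (a - 1) • s + a • 1) (ht : t * t = (b - 1) • t + b • 1)
    {ρ θ : ℝ} (hρ : 0 < ρ) (hab : ρ ^ 2 = a * b) (hθ : sin θ ≠ 0) (K : ℕ)
    (hK : (sin ((K + 1) * θ) / ρ ^ K) • Dw a b s t (K + 1) =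
      (a * b * (sin ((K + 2) * θ) / ρ ^ (K + 1))) • Dw a b s t K)
    (h0 : (Bw s t 0).trace = Fintype.card X)
    (h1 : ∀ k, k ≤ K → (Bw s t (k + 1)).trace = 0) {m : ℕ} (hm : 0 < m)
    (hσ : (2 * (K + 1 : ℕ) + 1) * sin θ - sin ((2 * (K + 1 : ℕ) + 1) * θ) = m * sin θ) :
    ∃ r : ℚ, r * ((1 + a * b - 2 * ρ * cos θ) * (2 * ρ * cos θ + (a + b))) =
      4 * (a * b) - (2 * ρ * cos θ) ^ 2 := by
  obtain ⟨p1, p2, p3, p4⟩ := delta_pos ha hb hρ hab (x_sq_lt hρ hab hθ)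
  obtain ⟨n, hn⟩ := mult hs ht hρ hab hθ K hK h0 h1 (σ := m / 4) (by positivity)
    (sigma_eq hθ _ (by rw [hσ]; ring)) (mul_pos (by linarith) (by linarith)).ne'
  have hN : (0 : ℝ) < Fintype.card X := by exact_mod_cast Fintype.card_pos
  refine ⟨n * m / Fintype.card X, ?_⟩
  push_cast
  rw [div_mul_eq_mul_div, div_eq_iff hN.ne']
  have h2 := sin_sq_add_cos_sq θ
  linear_combination 4 * hn + 4 * (a * b) * Fintype.card X * h2 + 4 * cos θ ^ 2 * Fintype.card X * hab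

theorem hecke [Nonempty X] {a b m : ℕ} {s t : Matrix X X ℝ} (ha : 2 ≤ a) (hb : 2 ≤ b) (hm : 2 ≤ m)
    (hs : s * s = ((a : ℝ) - 1) • s + (a : ℝ) • 1) (ht : t * t = ((b : ℝ) - 1) • t + (b : ℝ) • 1)
    (tr1 : ∀ k, 2 * (k + 1) ≤ m → ((t * s) ^ (k + 1)).trace = 0)
    (tr2 : ∀ k, 2 * k + 1 ≤ m → (s * (t * s) ^ k).trace = 0)
    (tr3 : ∀ k, 2 * k + 1 ≤ m → (t * (s * t) ^ k).trace = 0)
    (br1 : ∀ n, m = 2 * n → (s * t) ^ n = (t * s) ^ n)
    (br2 : ∀ n, m = 2 * n + 1 → s * (t * s) ^ n = t * (s * t) ^ n ∧ a = b) :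
    m = 2 ∨ m = 3 ∨ m = 4 ∨ m = 6 ∨ m = 8 := by
  have ha' : (2 : ℝ) ≤ a := by exact_mod_cast ha
  have hb' : (2 : ℝ) ≤ b := by exact_mod_cast hb
  have h0 : (Bw s t 0).trace = Fintype.card X := by
    rw [trace_B, tr1 0 (by omega), tr2 0 (by omega), tr3 0 (by omega)]; simp
  rcases Nat.even_or_odd' m with ⟨n, hn | hn⟩
  · by_cases h2 : n < 2
    · omega
    obtain ⟨K, rfl⟩ : ∃ K, n = K + 2 := ⟨n - 2, by omega⟩
    set ρ := √((a : ℝ) * b) with hρd
    have hρ : 0 < ρ := sqrt_pos.2 (by positivity)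
    have hab : ρ ^ 2 = a * b := sq_sqrt (by positivity)
    have hK : (0 : ℝ) < K + 2 := by positivity
    have A : ∀ θ : ℝ, sin θ ≠ 0 → ∀ j : ℕ, (K + 2) * θ = j * π → ∃ r : ℚ,
        r * ((1 + a * b - 2 * ρ * cos θ) * (2 * ρ * cos θ + (a + b))) =
          4 * (a * b) - (2 * ρ * cos θ) ^ 2 := by
      intro θ hθ j hj
      refine mult' ha' hb' hs ht hρ hab hθ K ?_ h0 ?_ (m := m) (by omega) ?_
      · rw [D_even hs ht (K + 1) (br1 _ hn), hj, sin_nat_mul_pi]; simp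
      · intro k hk
        rw [trace_B, tr1 k (by omega), tr1 (k + 1) (by omega), tr2 _ (by omega), tr3 _ (by omega)]
        simp
      · have : (2 * ((K + 1 : ℕ) : ℝ) + 1) * θ = j * (2 * π) - θ := by
          push_cast; linear_combination 2 * hj
        rw [this, sin_nat_mul_two_pi_sub, hn]; push_cast; ring
    have R : ∀ j : ℕ, 0 < j → j < K + 2 → ∃ q : ℚ, 2 * ρ * cos (j * π / (K + 2)) = q := by
      intro j hj hj'
      have hj1 : (0 : ℝ) < j := by exact_mod_cast hj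
      have hj2 : (j : ℝ) < K + 2 := by exact_mod_cast hj'
      have hθ : sin (j * π / (K + 2)) ≠ 0 := by
        refine (sin_pos_of_pos_of_lt_pi (by positivity) ?_).ne'
        rw [div_lt_iff₀ hK]; nlinarith [pi_pos]
      obtain ⟨r, hr⟩ := A _ hθ j (by field_simp)
      obtain ⟨r', hr'⟩ := A (π - j * π / (K + 2)) (by rwa [sin_pi_sub]) (K + 2 - j) (by
        rw [Nat.cast_sub hj'.le]; push_cast; field_simp)
      rw [cos_pi_sub, mul_neg] at hr'
      exact rat_even ha' hb' hρ hab (x_sq_lt hρ hab hθ) hr hr'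
    obtain ⟨q, hq⟩ := R 1 one_pos (by omega)
    have hc : ∃ q : ℚ, cos (2 * π / (K + 2 : ℕ)) = q := by
      refine ⟨q ^ 2 / (2 * (a * b)) - 1, ?_⟩
      have : 2 * π / ((K + 2 : ℕ) : ℝ) = 2 * ((1 : ℕ) * π / (K + 2)) := by push_cast; ring
      rw [this, cos_two_mul]
      push_cast at hq ⊢
      rw [← hq, ← hab]; field_simp
    have h6 : K ≠ 4 := by
      rintro rfl
      obtain ⟨q', hq'⟩ := R 2 two_pos (by omega)
      have e1 : ((1 : ℕ) : ℝ) * π / ((4 : ℕ) + 2) = π / 6 := by push_cast; ring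
      have e2 : ((2 : ℕ) : ℝ) * π / ((4 : ℕ) + 2) = π / 3 := by push_cast; ring
      rw [e1, cos_pi_div_six] at hq
      rw [e2, cos_pi_div_three] at hq'
      have : Irrational √(3 : ℕ) := Nat.Prime.irrational_sqrt (by norm_num)
      apply this
      refine ⟨q / q', ?_⟩
      push_cast
      rw [← hq, ← hq']; field_simp
    have := niven' (by omega) hc
    omega
  · obtain ⟨K, rfl⟩ : ∃ K, n = K + 1 := ⟨n - 1, by omega⟩
    obtain ⟨hbr, rfl⟩ := br2 _ hn
    have hm' : (m : ℝ) = 2 * K + 3 := by rw [hn]; push_cast; ring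
    have hm0 : (0 : ℝ) < m := by rw [hm']; positivity
    have hθ : sin (2 * π / m) ≠ 0 := by
      refine (sin_pos_of_pos_of_lt_pi (by positivity) ?_).ne'
      rw [div_lt_iff₀ hm0, hm']; nlinarith [pi_pos, mul_nonneg pi_pos.le (Nat.cast_nonneg (α := ℝ) K)]
    have ha0 : (0 : ℝ) < a := by linarith
    have htr : ((t * s) ^ (K + 2)).trace = 0 := by
      have e : (t * s) ^ (K + 2) = s * (t * s) ^ (K + 1) * s := by
        rw [hbr, ← mul_pow_mul, pow_succ (t * s) (K + 1), mul_assoc]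
      rw [e, Matrix.trace_mul_comm, ← mul_assoc, hs, add_mul, smul_mul_assoc, smul_mul_assoc,
        one_mul, Matrix.trace_add, Matrix.trace_smul, Matrix.trace_smul, tr2 _ (by omega),
        tr1 _ (by omega)]
      simp
    obtain ⟨r, hr⟩ := mult' ha' ha' hs ht ha0 (sq (a : ℝ)) hθ K (by
      have : ((K : ℝ) + 2) * (2 * π / m) = 2 * π - (K + 1) * (2 * π / m) := by
        field_simp; rw [hm']; ring
      rw [D_odd hs ht K hbr, smul_smul, this, sin_two_pi_sub]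
      congr 1; field_simp; ring) h0 (by
      intro k hk
      rw [trace_B, tr1 k (by omega), tr2 _ (by omega), tr3 _ (by omega)]
      rcases hk.lt_or_eq with hk | rfl
      · rw [tr1 (k + 1) (by omega)]; simp
      · rw [htr]; simp) (m := m) (by omega) (by
      have : (2 * ((K + 1 : ℕ) : ℝ) + 1) = m := by rw [hm']; push_cast; ring
      rw [this, mul_div_cancel₀ _ hm0.ne', sin_two_pi, sub_zero])
    obtain ⟨q, hq⟩ := rat_odd ha' (x_sq_lt ha0 (sq (a : ℝ)) hθ) hr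
    have := niven' (n := m) (by omega) ⟨q / (2 * a), by
      push_cast; rw [← hq]; field_simp⟩
    omega

end H2.FH
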