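import Cfsg.Agent.H2.FH1
import Cfsg.Agent.H5.BN2

/-! Feit–Higman for finite (B,N)-pairs of rank two. -/

set_option autoImplicit false

namespace H2.FH

open H5 H5.BN Cfsg

section Dihedral
variable {B : Type*} {W : Type*} [Group W] (S : InvGen B W) {s t : B}

theorem σ_mul_zpow (j : ℤ) :
    S.σ t * (S.σ t * S.σ s) ^ j = S.σ s * (S.σ t * S.σ s) ^ (j - 1) := by
  rw [show j = 1 + (j - 1) by ring, zpow_add, zpow_one, ← mul_assoc, ← mul_assoc, S.sq, one_mul]
  simp

theorem normal_form (hall : ∀ i, i = s ∨ i = t) (l : List B) :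
    ∃ j : ℤ, (S.wp l = (S.σ t * S.σ s) ^ j ∧ |2 * j| ≤ l.length) ∨
      (S.wp l = S.σ s * (S.σ t * S.σ s) ^ j ∧ |2 * j + 1| ≤ l.length) := by
  induction l with
  | nil => exact ⟨0, Or.inl ⟨by simp, by simp⟩⟩
  | cons i l ih =>
    obtain ⟨j, ⟨h, hj⟩ | ⟨h, hj⟩⟩ := ih <;> rcases hall i with rfl | rfl
    · refine ⟨j, Or.inr ⟨by rw [S.wp_cons, h], ?_⟩⟩
      rw [abs_le] at hj ⊢; simp only [List.length_cons]; push_cast; omega
    · refine ⟨j - 1, Or.inr ⟨by rw [S.wp_cons, h, σ_mul_zpow], ?_⟩⟩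
      rw [abs_le] at hj ⊢; simp only [List.length_cons]; push_cast; omega
    · refine ⟨j, Or.inl ⟨by rw [S.wp_cons, h, ← mul_assoc, S.sq, one_mul], ?_⟩⟩
      rw [abs_le] at hj ⊢; simp only [List.length_cons]; push_cast; omega
    · refine ⟨1 + j, Or.inl ⟨by rw [S.wp_cons, h, zpow_add, zpow_one, mul_assoc], ?_⟩⟩
      rw [abs_le] at hj ⊢; simp only [List.length_cons]; push_cast; omega

theorem conj_zpow' (j : ℤ) :
    S.σ s * (S.σ t * S.σ s) ^ j = (S.σ t * S.σ s) ^ (-j) * S.σ s := by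
  have h : S.σ s * (S.σ t * S.σ s) * (S.σ s)⁻¹ = (S.σ t * S.σ s)⁻¹ := by
    rw [mul_inv_rev, S.inv_σ, S.inv_σ, mul_assoc, mul_assoc, S.sq, mul_one]
  rw [← inv_zpow', ← h, conj_zpow]; simp

theorem σ_not_mem (hs : S.σ s ≠ 1) (ht : S.σ t ≠ 1) :
    S.σ s ∉ Subgroup.zpowers (S.σ t * S.σ s) := by
  rintro ⟨j, hj⟩
  simp only at hj
  set ρ := S.σ t * S.σ s with hρ
  have h1 : ρ * ρ = 1 := by
    have h2 := conj_zpow' S (s := s) (t := t) 1
    rw [← hρ, ← hj, ← zpow_add, ← zpow_add, add_comm (-1) j, zpow_add, zpow_add,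
      mul_left_cancel_iff, zpow_one, zpow_neg, zpow_one] at h2
    exact mul_eq_one_iff_eq_inv.2 h2
  have h3 : ρ ^ (2 : ℤ) = 1 := by rw [zpow_two, h1]
  rcases Int.even_or_odd' j with ⟨k, rfl | rfl⟩
  · rw [zpow_mul, h3, one_zpow] at hj; exact hs hj.symm
  · rw [zpow_add, zpow_mul, h3, one_zpow, one_mul, zpow_one, hρ] at hj
    exact ht (by simpa using hj)

theorem card_eq [Finite W] (hall : ∀ i, i = s ∨ i = t) (hs : S.σ s ≠ 1) (ht : S.σ t ≠ 1) :
    Nat.card W = 2 * orderOf (S.σ t * S.σ s) := by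
  have h : (Subgroup.zpowers (S.σ t * S.σ s)).index = 2 := by
    rw [Subgroup.index_eq_two_iff']
    refine ⟨S.σ s, fun w => ?_⟩
    obtain ⟨l, -, rfl⟩ := S.exists_reduced w
    obtain ⟨j, ⟨h, -⟩ | ⟨h, -⟩⟩ := normal_form S hall l
    · right
      have hm : S.wp l ∈ Subgroup.zpowers (S.σ t * S.σ s) := ⟨j, h.symm⟩
      exact ⟨hm, fun h' => σ_not_mem S hs ht ((Subgroup.mul_mem_cancel_right _ hm).1 h')⟩
    · left
      have hm : (S.σ t * S.σ s) ^ j ∈ Subgroup.zpowers (S.σ t * S.σ s) := ⟨j, rfl⟩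
      rw [h, ← mul_assoc, S.sq, one_mul]
      exact ⟨hm, fun h' => σ_not_mem S hs ht ((Subgroup.mul_mem_cancel_right _ hm).1 h')⟩
  rw [← Nat.card_zpowers, ← h, Subgroup.index_mul_card]

theorem len_even (hall : ∀ i, i = s ∨ i = t) (hs : S.σ s ≠ 1) (ht : S.σ t ≠ 1) (k : ℕ)
    (hk : 2 * k ≤ orderOf (S.σ t * S.σ s)) : 2 * k ≤ S.len ((S.σ t * S.σ s) ^ k) := by
  obtain ⟨l, hl, hw⟩ := S.exists_reduced ((S.σ t * S.σ s) ^ k)
  obtain ⟨j, ⟨h, hj⟩ | ⟨h, hj⟩⟩ := normal_form S hall l
  · rw [hw, ← zpow_natCast, zpow_eq_zpow_iff_modEq] at h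
    by_contra hlt
    rw [abs_le] at hj
    have := Int.le_of_dvd (by omega) h.symm.dvd
    omega
  · exfalso
    apply σ_not_mem S hs ht
    have hm : (S.σ t * S.σ s) ^ j ∈ Subgroup.zpowers (S.σ t * S.σ s) := ⟨j, rfl⟩
    rw [← Subgroup.mul_mem_cancel_right _ hm, ← h, hw]
    exact Subgroup.pow_mem _ (Subgroup.mem_zpowers _) _

theorem len_odd (hall : ∀ i, i = s ∨ i = t) (hs : S.σ s ≠ 1) (ht : S.σ t ≠ 1) (k : ℕ)
    (hk : 2 * k + 1 ≤ orderOf (S.σ t * S.σ s)) :
    2 * k + 1 ≤ S.len (S.σ s * (S.σ t * S.σ s) ^ k) := by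
  obtain ⟨l, hl, hw⟩ := S.exists_reduced (S.σ s * (S.σ t * S.σ s) ^ k)
  obtain ⟨j, ⟨h, hj⟩ | ⟨h, hj⟩⟩ := normal_form S hall l
  · exfalso
    apply σ_not_mem S hs ht
    have hm : (S.σ t * S.σ s) ^ k ∈ Subgroup.zpowers (S.σ t * S.σ s) :=
      Subgroup.pow_mem _ (Subgroup.mem_zpowers _) _
    rw [← Subgroup.mul_mem_cancel_right _ hm, ← hw, h]
    exact ⟨j, rfl⟩
  · rw [hw, mul_left_cancel_iff, ← zpow_natCast, zpow_eq_zpow_iff_modEq] at h
    by_contra hlt
    rw [abs_le] at hj
    have := Int.le_of_dvd (by omega) h.symm.dvd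
    omega

theorem len_pow_le (k : ℕ) : S.len ((S.σ t * S.σ s) ^ k) ≤ 2 * k := by
  induction k with
  | zero => simp
  | succ k ih =>
    rw [pow_succ', mul_assoc]
    have := S.len_σ_mul_le t (S.σ s * (S.σ t * S.σ s) ^ k)
    have := S.len_σ_mul_le s ((S.σ t * S.σ s) ^ k)
    omega

end Dihedral

variable {G : Type*} [Group G] (P : BNPair G)

theorem cell_mul {g b b' : G} (hb : b ∈ P.B) (hb' : b' ∈ P.B) : cell P (b * g * b') = cell P g :=
  (((inC_cell g).mul_left hb).mul_right hb').cell_eq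

/-- relative position of two cosets of `B` -/
noncomputable def pos (x y : G ⧸ P.B) : W P := cell P (x.out⁻¹ * y.out)

theorem pos_mk (g h : G) : pos P (g : G ⧸ P.B) (h : G ⧸ P.B) = cell P (g⁻¹ * h) := by
  obtain ⟨b, hb⟩ := QuotientGroup.mk_out_eq_mul P.B g
  obtain ⟨b', hb'⟩ := QuotientGroup.mk_out_eq_mul P.B h
  rw [pos, hb, hb', ← cell_mul P (g := g⁻¹ * h) (P.B.inv_mem b.2) b'.2]
  congr 1; group

theorem pos_eq_one {x y : G ⧸ P.B} : pos P x y = 1 ↔ x = y := by
  induction x using QuotientGroup.induction_on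
  induction y using QuotientGroup.induction_on
  rw [pos_mk, cell_eq_iff, inC_one_iff, QuotientGroup.eq]

theorem pos_smul (g : G) (x y : G ⧸ P.B) : pos P (g • x) (g • y) = pos P x y := by
  induction x using QuotientGroup.induction_on
  induction y using QuotientGroup.induction_on
  simp only [MulAction.Quotient.smul_coe, smul_eq_mul, pos_mk]
  congr 1; group

open Classical in
/-- the matrix of a Bruhat cell -/
noncomputable def TM (w : W P) : Matrix (G ⧸ P.B) (G ⧸ P.B) ℝ :=
  fun x y => if pos P x y = w then 1 else 0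

variable [Fintype (G ⧸ P.B)] [DecidableEq (G ⧸ P.B)]

theorem TM_one : TM P 1 = 1 := by
  ext x y
  simp only [TM, pos_eq_one, Matrix.one_apply]

theorem TM_trace {w : W P} (hw : w ≠ 1) : (TM P w).trace = 0 := by
  refine Finset.sum_eq_zero fun x _ => ?_
  have : pos P x x = 1 := (pos_eq_one P).2 rfl
  simp [TM, this, hw.symm]

theorem TM_mul (s : P.S) (w : W P) (h : (gen P).len w ≤ (gen P).len ((gen P).σ s * w)) :
    TM P ((gen P).σ s) * TM P w = TM P ((gen P).σ s * w) := by
  ext x z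
  induction x using QuotientGroup.induction_on with | H x => ?_
  induction z using QuotientGroup.induction_on with | H z => ?_
  have key : ∀ y : G, cell P (x⁻¹ * y) = (gen P).σ s → cell P (y⁻¹ * z) = w →
      cell P (x⁻¹ * z) = (gen P).σ s * w := by
    intro y h1 h2
    have := InC.mul_of_le s w h _ _ (cell_eq_iff.1 h1) (cell_eq_iff.1 h2)
    rw [mul_assoc, mul_inv_cancel_left] at this
    exact this.cell_eq
  rw [Matrix.mul_apply]
  by_cases hc : cell P (x⁻¹ * z) = (gen P).σ s * w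
  · obtain ⟨g₁, g₂, h1, h2, he⟩ := (cell_eq_iff.1 hc).split_left
    have hz : z = x * g₁ * g₂ := by rw [mul_assoc, ← he]; group
    rw [Finset.sum_eq_single ((x * g₁ : G) : G ⧸ P.B)]
    · have e : (x * g₁)⁻¹ * z = g₂ := by rw [hz]; group
      simp only [TM, pos_mk, hc, e, inv_mul_cancel_left, h1.cell_eq, h2.cell_eq, if_true, mul_one]
    · intro y _ hy
      induction y using QuotientGroup.induction_on with | H y => ?_
      simp only [TM, pos_mk]
      split_ifs with a1 a2
      · exfalso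
        rw [pos_mk] at a1 a2
        have b1 := (cell_eq_iff.1 a1).inv
        rw [InvGen.inv_σ] at b1
        have e : (x⁻¹ * y)⁻¹ * g₁ = y⁻¹ * (x * g₁) := by group
        rcases b1.mul h1 with b2 | b2
        · rw [(gen P).sq, inC_one_iff, e] at b2
          exact hy (QuotientGroup.eq.2 b2)
        · have b3 := InC.mul_of_le s w h _ _ b2 h2
          have e2 : (x⁻¹ * y)⁻¹ * g₁ * g₂ = y⁻¹ * z := by rw [hz]; group
          rw [e2] at b3
          have := b3.unique (cell_eq_iff.1 a2)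
          exact σ_ne_one P s (by simpa using this)
      all_goals simp
    · simp
  · rw [Finset.sum_eq_zero]
    · simp only [TM, pos_mk, hc, if_false]
    · intro y _
      induction y using QuotientGroup.induction_on with | H y => ?_
      simp only [TM, pos_mk]
      split_ifs with a1 a2
      · rw [pos_mk] at a1 a2
        exact absurd (key y a1 a2) hc
      all_goals simp

theorem TM_quad (s : P.S) : ∃ a : ℕ, 2 ≤ a ∧
    TM P ((gen P).σ s) * TM P ((gen P).σ s) = ((a : ℝ) - 1) • TM P ((gen P).σ s) + (a : ℝ) • 1 ∧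
    ∀ x, ∑ y, TM P ((gen P).σ s) x y = a := by
  classical
  set σ := (gen P).σ s with hσ
  have hσ1 : σ ≠ 1 := σ_ne_one P s
  let R : G ⧸ P.B → G ⧸ P.B → Prop := fun x y => x = y ∨ pos P x y = σ
  have hsym : ∀ x y, pos P x y = σ → pos P y x = σ := by
    intro x y h
    have := (cell_eq_iff.1 h).inv
    rw [InvGen.inv_σ, mul_inv_rev, inv_inv] at this
    exact this.cell_eq
  have htr : ∀ x y z, R x y → R y z → R x z := by
    rintro x y z (rfl | h1) (rfl | h2)
    · exact Or.inl rfl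
    · exact Or.inr h2
    · exact Or.inr h1
    · rcases (cell_eq_iff.1 h1).mul (cell_eq_iff.1 h2) with h | h
      · left
        rw [(gen P).sq, mul_assoc, mul_inv_cancel_left] at h
        exact (pos_eq_one P).1 h.cell_eq
      · right
        rw [mul_assoc, mul_inv_cancel_left] at h
        exact h.cell_eq
  have hRs : ∀ x y, R x y → R y x := fun x y h => h.imp Eq.symm (hsym x y)
  set x0 : G ⧸ P.B := ((1 : G) : G ⧸ P.B) with hx0
  set a := (Finset.univ.filter fun y => pos P x0 y = σ).card with ha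
  have hrow : ∀ x, ∑ y, TM P σ x y = a := by
    intro x
    induction x using QuotientGroup.induction_on with | H x => ?_
    rw [← Equiv.sum_comp (MulAction.toPerm x), ha, Finset.card_filter]
    push_cast
    refine Finset.sum_congr rfl fun y _ => ?_
    have : (x : G ⧸ P.B) = x • x0 := by simp [hx0]
    simp only [TM, MulAction.toPerm_apply]
    rw [this, pos_smul]
  have hS : ∀ x y, (1 + TM P σ) x y = if R x y then 1 else 0 := by
    intro x y
    by_cases h : x = y
    · subst h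
      have : pos P x x = 1 := (pos_eq_one P).2 rfl
      simp [TM, R, this, hσ1.symm]
    · simp [TM, R, h, Matrix.one_apply_ne h]
  have hSS : (1 + TM P σ) * (1 + TM P σ) = ((a : ℝ) + 1) • (1 + TM P σ) := by
    ext x z
    rw [Matrix.mul_apply, Matrix.smul_apply, hS x z]
    split_ifs with h
    · have : ∀ y, (1 + TM P σ) x y * (1 + TM P σ) y z = (1 + TM P σ) x y := by
        intro y
        rw [hS, hS]
        split_ifs with a1 a2
        · simp
        · exact absurd (htr _ _ _ (hRs _ _ a1) h) a2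
        all_goals simp
      simp only [this]
      simp only [Matrix.add_apply, Finset.sum_add_distrib, hrow]
      simp [Matrix.one_apply, add_comm]
    · rw [Finset.sum_eq_zero]
      · simp
      · intro y _
        rw [hS, hS]
        split_ifs with a1 a2
        · exact absurd (htr _ _ _ a1 a2) h
        all_goals simp
  refine ⟨a, ?_, ?_, hrow⟩
  · obtain ⟨b, hb, hn⟩ := exists_conj_not_mem P s
    have h1 : InC P σ (s : G) := InC.self (sN P s)
    refine Finset.one_lt_card.2 ⟨((s : G) : G ⧸ P.B), ?_, ((b * s : G) : G ⧸ P.B), ?_, ?_⟩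
    · simp only [Finset.mem_filter, Finset.mem_univ, true_and, hx0, pos_mk, inv_one, one_mul]
      exact h1.cell_eq
    · simp only [Finset.mem_filter, Finset.mem_univ, true_and, hx0, pos_mk, inv_one, one_mul]
      exact (h1.mul_left hb).cell_eq
    · intro h
      have h2 := P.B.mul_mem (P.sq_mem s s.2) (QuotientGroup.eq.1 h)
      apply hn
      convert h2 using 1; group
  · have : TM P σ * TM P σ = (1 + TM P σ) * (1 + TM P σ) - 1 - TM P σ - TM P σ := by noncomm_ring
    rw [this, hSS]; module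

theorem TM_words {s t : P.S} (hall : ∀ i, i = s ∨ i = t) (k : ℕ) :
    (2 * k ≤ orderOf ((gen P).σ t * (gen P).σ s) →
      (TM P ((gen P).σ t) * TM P ((gen P).σ s)) ^ k = TM P (((gen P).σ t * (gen P).σ s) ^ k)) ∧
    (2 * k + 1 ≤ orderOf ((gen P).σ t * (gen P).σ s) →
      TM P ((gen P).σ s) * (TM P ((gen P).σ t) * TM P ((gen P).σ s)) ^ k =
        TM P ((gen P).σ s * ((gen P).σ t * (gen P).σ s) ^ k)) := by
  have hs := σ_ne_one P s
  have ht := σ_ne_one P t
  have step : ∀ k : ℕ, (2 * k ≤ orderOf ((gen P).σ t * (gen P).σ s) →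
      (TM P ((gen P).σ t) * TM P ((gen P).σ s)) ^ k = TM P (((gen P).σ t * (gen P).σ s) ^ k)) →
      (2 * k + 1 ≤ orderOf ((gen P).σ t * (gen P).σ s) →
      TM P ((gen P).σ s) * (TM P ((gen P).σ t) * TM P ((gen P).σ s)) ^ k =
        TM P ((gen P).σ s * ((gen P).σ t * (gen P).σ s) ^ k)) := by
    intro k h hk
    rw [h (by omega), TM_mul]
    have := len_odd (gen P) hall hs ht k hk
    have := len_pow_le (gen P) (s := s) (t := t) k
    omega
  induction k with
  | zero => exact ⟨fun _ => by simp [TM_one], step 0 fun _ => by simp [TM_one]⟩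
  | succ k ih =>
    have : 2 * (k + 1) ≤ orderOf ((gen P).σ t * (gen P).σ s) →
        (TM P ((gen P).σ t) * TM P ((gen P).σ s)) ^ (k + 1) =
          TM P (((gen P).σ t * (gen P).σ s) ^ (k + 1)) := by
      intro hk
      have h1 := len_even (gen P) hall hs ht (k + 1) hk
      have h2 := len_pow_le (gen P) (s := s) (t := t) k
      have h3 := (gen P).len_σ_mul_le s (((gen P).σ t * (gen P).σ s) ^ k)
      rw [pow_succ', mul_assoc] at h1
      rw [pow_succ', mul_assoc, ih.2 (by omega), TM_mul P _ _ (by omega), pow_succ', mul_assoc]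
    exact ⟨this, step _ this⟩

omit [Fintype (G ⧸ P.B)] [DecidableEq (G ⧸ P.B)] in
theorem feit_higman [Finite G] (h2 : P.rank = 2) :
    Nat.card (W P) ∈ ({4, 6, 8, 12, 16} : Set ℕ) := by
  classical
  letI : Fintype (G ⧸ P.B) := Fintype.ofFinite _
  obtain ⟨s, t, hst, huniv⟩ := Nat.card_eq_two_iff.1 h2
  have hall : ∀ i, i = s ∨ i = t := fun i => by
    have : i ∈ ({s, t} : Set P.S) := huniv ▸ Set.mem_univ i
    simpa using this
  have hall' : ∀ i, i = t ∨ i = s := fun i => (hall i).symm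
  have hs := σ_ne_one P s
  have ht := σ_ne_one P t
  have hinv : (gen P).σ s * (gen P).σ t = ((gen P).σ t * (gen P).σ s)⁻¹ := by simp
  have hord : orderOf ((gen P).σ s * (gen P).σ t) = orderOf ((gen P).σ t * (gen P).σ s) := by
    rw [hinv, orderOf_inv]
  set ρ := (gen P).σ t * (gen P).σ s with hρ
  set m := orderOf ρ with hm
  have hm2 : 2 ≤ m := by
    have h0 : 0 < m := orderOf_pos _
    have h1 : m ≠ 1 := by
      rw [hm, Ne, orderOf_eq_one_iff, hρ, mul_eq_one_iff_eq_inv, InvGen.inv_σ]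
      exact fun h => hst (σ_injective P h).symm
    omega
  obtain ⟨a, ha, hqa, hra⟩ := TM_quad P s
  obtain ⟨b, hb, hqb, hrb⟩ := TM_quad P t
  have hne : ∀ (w : W P) (k : ℕ), k + 1 ≤ (gen P).len w → w ≠ 1 := by
    rintro w k h rfl
    simp at h
  have := hecke (m := m) ha hb hm2 hqa hqb
    (fun k hk => by
      rw [(TM_words P hall (k + 1)).1 hk]
      exact TM_trace P (hne _ (2 * k + 1) (len_even (gen P) hall hs ht (k + 1) hk)))
    (fun k hk => by
      rw [(TM_words P hall k).2 hk]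
      exact TM_trace P (hne _ _ (len_odd (gen P) hall hs ht k hk)))
    (fun k hk => by
      rw [(TM_words P hall' k).2 (hord ▸ hk)]
      exact TM_trace P (hne _ _ (len_odd (gen P) hall' ht hs k (hord ▸ hk))))
    (fun n hn => by
      rw [(TM_words P hall n).1 hn.ge, (TM_words P hall' n).1 (hord ▸ hn.ge), hinv, ← hρ, inv_pow]
      congr 1
      rw [inv_eq_iff_mul_eq_one, ← pow_add, ← two_mul, ← hn, hm, pow_orderOf_eq_one])
    (fun n hn => by
      have hbr : TM P ((gen P).σ s) * (TM P ((gen P).σ t) * TM P ((gen P).σ s)) ^ n =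
          TM P ((gen P).σ t) * (TM P ((gen P).σ s) * TM P ((gen P).σ t)) ^ n := by
        rw [(TM_words P hall n).2 hn.ge, (TM_words P hall' n).2 (hord ▸ hn.ge), hinv, ← hρ, inv_pow]
        congr 1
        have h1 : ρ ^ n * ρ * ρ ^ n = 1 := by
          rw [← pow_succ, ← pow_add, show n + 1 + n = 2 * n + 1 by ring, ← hn, hm,
            pow_orderOf_eq_one]
        have h3 : (gen P).σ t = (gen P).σ s * ρ⁻¹ := by
          rw [← hinv, ← mul_assoc, (gen P).sq, one_mul]
        conv_rhs => rw [h3]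
        rw [mul_assoc, ← mul_inv_rev, mul_left_cancel_iff, eq_inv_iff_mul_eq_one, ← mul_assoc,
          ← pow_add, ← pow_succ, ← two_mul, ← hn, hm, pow_orderOf_eq_one]
      refine ⟨hbr, ?_⟩
      let J : G ⧸ P.B → ℝ := fun _ => 1
      have Js : (TM P ((gen P).σ s)).mulVec J = (a : ℝ) • J := by
        ext x; simp [Matrix.mulVec, dotProduct, J, hra]
      have Jt : (TM P ((gen P).σ t)).mulVec J = (b : ℝ) • J := by
        ext x; simp [Matrix.mulVec, dotProduct, J, hrb]
      have Jp : ∀ (u v : Matrix (G ⧸ P.B) (G ⧸ P.B) ℝ) (c d : ℝ), u.mulVec J = c • J →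
          v.mulVec J = d • J → ∀ k : ℕ, ((u * v) ^ k).mulVec J = (c * d) ^ k • J := by
        intro u v c d hu hv k
        induction k with
        | zero => simp
        | succ k ih =>
          rw [pow_succ', ← Matrix.mulVec_mulVec, ih, Matrix.mulVec_smul, ← Matrix.mulVec_mulVec,
            hv, Matrix.mulVec_smul, hu, smul_smul, smul_smul]
          congr 1; ring
      have h5 := congrArg (fun M => Matrix.mulVec M J ((1 : G) : G ⧸ P.B)) hbr
      simp only [← Matrix.mulVec_mulVec, Jp _ _ _ _ Js Jt, Jp _ _ _ _ Jt Js, Matrix.mulVec_smul,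
        Js, Jt, Pi.smul_apply, smul_eq_mul, J, mul_one, mul_comm (b : ℝ) a] at h5
      have h6 : ((a : ℝ) * b) ^ n ≠ 0 := by
        have : 0 < a := by omega
        have : 0 < b := by omega
        positivity
      exact_mod_cast mul_left_cancel₀ h6 h5)
  rw [card_eq (gen P) hall hs ht, ← hρ, ← hm]
  simp only [Set.mem_insert_iff, Set.mem_singleton_iff]
  omega

end H2.FH
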