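import Cfsg.Agent.H1.XS
import Cfsg.Agent.H1.Fitting
import Cfsg.Prelude.Def_MonsterType

/-! The large extraspecial subgroup of the holomorph of an elementary abelian 2-group. -/

set_option autoImplicit false

namespace H2.Hol

open Cfsg Subgroup Matrix

local notation "F" => ZMod 2

theorem f01 : ∀ a : F, a = 0 ∨ a = 1 := by decide

variable {G : Type*} [Group G] [Finite G] {n : ℕ}

theorem coords (U : Subgroup G) (hU : IsElementaryAbelian 2 U) (hc : Nat.card U = 2 ^ (n + 1))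
    {z : G} (hz : z ∈ U) (hz1 : z ≠ 1) :
    ∃ φ : Multiplicative ((Fin n → F) × F) ≃* U, (φ (Multiplicative.ofAdd (0, 1)) : G) = z := by
  haveI := hU.1
  letI : CommGroup U := { (inferInstance : Group U) with mul_comm := mul_comm' }
  letI : Module F (Additive U) := AddCommGroup.zmodModule fun x => by
    have : x.toMul ^ 2 = 1 := Subtype.ext (hU.2 _ x.toMul.2)
    exact congrArg Additive.ofMul this
  set v : Additive U := Additive.ofMul ⟨z, hz⟩ with hv
  have hv0 : v ≠ 0 := fun e => hz1 (congrArg Subtype.val (congrArg Additive.toMul e))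
  obtain ⟨W, hW⟩ := (Submodule.span F {v}).exists_isCompl
  have h1 : Module.finrank F (Additive U) = n + 1 := by
    have := Module.natCard_eq_pow_finrank (K := F) (V := Additive U)
    rw [Nat.card_zmod, show Nat.card (Additive U) = 2 ^ (n + 1) from hc] at this
    exact (Nat.pow_right_injective le_rfl this).symm
  have h2 : Module.finrank F W = n := by
    have := Submodule.finrank_add_eq_of_isCompl hW
    rw [finrank_span_singleton hv0, h1] at this
    omega
  let e : ((Fin n → F) × F) ≃ₗ[F] Additive U :=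
    (((Module.finBasisOfFinrankEq F W h2).equivFun.symm.prodCongr
      (LinearEquiv.toSpanNonzeroSingleton F _ v hv0))).trans (Submodule.prodEquivOfIsCompl _ _ hW.symm)
  refine ⟨AddEquiv.toMultiplicativeLeft e.toAddEquiv, ?_⟩
  have : e (0, 1) = v := by simp [e]
  exact congrArg (fun x : Additive U => (x.toMul : G)) this

theorem main (hn : 1 ≤ n) (U M : Subgroup G) (hUM : U ⊓ M = ⊥)
    (c : (Fin n → F) × F → G) (ci : Function.Injective c) (ca : ∀ v w, c (v + w) = c v * c w)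
    (hU : ∀ x, x ∈ U ↔ ∃ v, c v = x) (α : G →* Module.End F ((Fin n → F) × F))
    (hα : ∀ g v, g * c v * g⁻¹ = c (α g v)) (hker : ∀ g, α g = 1 ↔ g ∈ U)
    (hfull : ∀ L : ((Fin n → F) × F) ≃ₗ[F] ((Fin n → F) × F), ∃ m ∈ M, ∀ v, α m v = L v)
    (hdec : ∀ g : G, ∃ u ∈ U, ∃ m ∈ M, g = u * m) (hUc : Nat.card U = 2 ^ (n + 1))
    (C : Subgroup G) (hC : C = centralizer (zpowers (c (0, 1)) : Set G))
    (Q : Subgroup G) (hQ : Q = (pCore 2 C).map C.subtype) :
    H1B.XS 2 Q (c (0, 1)) ∧ U ≤ Q ∧ ¬ Q ≤ centralizer Q ∧ Nat.card Q = 2 ^ (2 * n + 1) ∧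
      ∃ K : Subgroup G, K ≤ C ∧ Q ⊓ K = ⊥ ∧ Q ⊔ K = C ∧ Nonempty (K ≃* GL (Fin n) F) := by
  have h20 : (2 : F) = 0 := rfl
  have c0 : c 0 = 1 := by simpa using ca 0 0
  have mC : ∀ g, g ∈ C ↔ α g (0, 1) = (0, 1) := fun g => by
    rw [hC, zpowers_eq_closure, centralizer_closure, mem_centralizer_singleton_iff,
      ← mul_inv_eq_iff_eq_mul, hα, ci.eq_iff]
  have split : ∀ g ∈ C, ∀ v, α g v = α g (v.1, 0) + (0, v.2) := fun g hg v => by
    have : v = (v.1, 0) + v.2 • ((0 : Fin n → F), (1 : F)) := by simp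
    conv_lhs => rw [this, map_add, map_smul, (mC g).1 hg]
    simp
  have fix0 : ∀ g ∈ C, ∀ a, α g (0, a) = (0, a) := fun g hg a => by
    rw [split g hg]; simp [show ((0 : Fin n → F), (0 : F)) = 0 from rfl]
  have lift : ∀ (A : (Fin n → F) ≃ₗ[F] (Fin n → F)) (l : (Fin n → F) →ₗ[F] F), ∃ m ∈ M, m ∈ C ∧
      ∀ v, α m v = (A v.1, v.2 + l v.1) := fun A l => by
    obtain ⟨m, hm, e⟩ := hfull (A.skewProd (LinearEquiv.refl F F) l)
    exact ⟨m, hm, (mC m).2 (by rw [e]; simp), fun v => by rw [e]; simp⟩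
  have UC : U ≤ C := fun u hu => (mC u).2 (by rw [(hker u).2 hu]; rfl)
  obtain ⟨π, hπ⟩ : ∃ π : C →* Module.End F (Fin n → F), ∀ (g : C) v, (α g v).1 = π g v.1 := by
    have e : ∀ (g : C) v, (α g v).1 = (α g (v.1, 0)).1 := fun g v => by
      rw [split g g.2]; simp
    exact ⟨{ toFun := fun g => LinearMap.fst F _ _ ∘ₗ α g ∘ₗ LinearMap.inl F _ _
             map_one' := by ext; simp
             map_mul' := fun g h => LinearMap.ext fun w => by
               simpa using e g (α h (w, 0)) }, e⟩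
  -- the kernel of `π`
  have kα : ∀ g : C, g ∈ π.ker → ∀ v, α g v = v + (0, (α g (v.1, 0)).2) := fun g hg v => by
    have h1 := hπ g (v.1, 0)
    rw [(MonoidHom.mem_ker).1 hg] at h1
    rw [split g g.2]
    ext1
    · simpa using h1
    · simp [add_comm]
  have kcomm : ∀ g ∈ π.ker, ∀ h ∈ π.ker, α (g : C) * α (h : C) = α (h : C) * α (g : C) :=
    fun g hg h hh => LinearMap.ext fun v => by
      simp only [Module.End.mul_apply]
      rw [kα h hh v, map_add, fix0 _ g.2, kα g hg v, map_add, fix0 _ h.2, kα h hh v]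
      simp only [add_right_comm]
  have ksq : ∀ g ∈ π.ker, α (g : C) * α (g : C) = 1 := fun g hg => LinearMap.ext fun v => by
    simp only [Module.End.mul_apply, Module.End.one_apply]
    rw [kα g hg v, map_add, fix0 _ g.2, kα g hg v, add_assoc]
    simp [CharTwo.add_self_eq_zero]
  have mz : ∀ a, c (0, a) ∈ zpowers (c (0, 1)) := fun a => by
    rcases f01 a with rfl | rfl
    · exact (show c (0, 0) = 1 from c0) ▸ one_mem _
    · exact mem_zpowers _
  have csq : ∀ v, c v * c v = 1 := fun v => by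
    rw [← ca, ← two_smul F v, show (2 : F) = 0 from rfl, zero_smul, c0]
  have ccomm : ∀ v w, c v * c w = c w * c v := fun v w => by rw [← ca, ← ca, add_comm]
  have Minj : ∀ m ∈ M, α m = 1 → m = 1 := fun m hm e => by
    have : m ∈ U ⊓ M := ⟨(hker m).1 e, hm⟩
    rwa [hUM, mem_bot] at this
  have Uk : ∀ u (hu : u ∈ U), (⟨u, UC hu⟩ : C) ∈ π.ker := fun u hu => LinearMap.ext fun w => by
    have := hπ ⟨u, UC hu⟩ (w, 0)
    rw [(hker u).2 hu] at this
    exact this.symm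
  have kdec : ∀ g ∈ π.ker, ∃ v, ∃ t ∈ π.ker, (t : C).1 ∈ M ∧ (g : C).1 = c v * t.1 := fun g hg => by
    obtain ⟨u, hu, m, hm, e⟩ := hdec g.1
    obtain ⟨v, rfl⟩ := (hU u).1 hu
    refine ⟨v, (⟨_, UC hu⟩ : C)⁻¹ * g, mul_mem (inv_mem (Uk _ hu)) hg, ?_, by simp⟩
    simpa [e] using hm
  have tc : ∀ t ∈ π.ker, ∀ v, ∃ a, (t : C).1 * c v = c (0, a) * c v * t.1 := fun t ht v =>
    ⟨_, by rw [← mul_inv_eq_iff_eq_mul, hα, kα t ht, add_comm, ca]⟩
  have zc : ∀ g : C, ∀ a, g.1 * c (0, a) = c (0, a) * g.1 := fun g a => by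
    rw [← mul_inv_eq_iff_eq_mul, hα, fix0 _ g.2]
  have kmul : ∀ g ∈ π.ker, ∀ h ∈ π.ker, ∃ a, (g : C).1 * h.1 = c (0, a) * (h.1 * g.1) := by
    intro g hg h hh
    obtain ⟨v, s, hs, sM, e1⟩ := kdec g hg
    obtain ⟨w, t, ht, tM, e2⟩ := kdec h hh
    have st : s.1 * t.1 = t.1 * s.1 := by
      rw [← mul_inv_eq_one]
      refine Minj _ (mul_mem (mul_mem sM tM) (inv_mem (mul_mem tM sM))) ?_
      rw [map_mul, map_mul, kcomm s hs t ht, ← map_mul, ← map_mul, mul_inv_cancel, map_one]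
    obtain ⟨a, ha⟩ := tc s hs w
    obtain ⟨b, hb⟩ := tc t ht v
    refine ⟨a + b, ?_⟩
    have : c (0, a + b) = c (0, a) * c (0, b) := by rw [← ca]; simp
    rw [e1, e2, mul_assoc, ← mul_assoc s.1, ha, mul_assoc (c w), ← mul_assoc t.1, hb, this]
    simp only [← mul_assoc, ← ca]
    rw [mul_assoc, mul_assoc (c _) t.1, st]
    congr 2
    ext1
    · simp [add_comm]
    · simp only [Prod.snd_add]; linear_combination (-b) * h20
  have kpow : ∀ g ∈ π.ker, ∃ a, (g : C).1 * g.1 = c (0, a) := by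
    intro g hg
    obtain ⟨v, s, hs, sM, e1⟩ := kdec g hg
    have ss : s.1 * s.1 = 1 := Minj _ (mul_mem sM sM) (by rw [map_mul, ksq s hs])
    obtain ⟨a, ha⟩ := tc s hs v
    refine ⟨a, ?_⟩
    rw [e1, mul_assoc, ← mul_assoc s.1, ha, mul_assoc, ss, mul_one, ccomm (0, a), ← mul_assoc, csq,
      one_mul]
  have hP : pCore 2 C = π.ker := by
    refine le_antisymm ?_ (H1.le_pCore fun g => ⟨2, Subtype.ext (Subtype.ext ?_)⟩)
    · letI : MulAction (pCore 2 C) (Fin n → F) := MulAction.compHom _ (π.comp (pCore 2 C).subtype)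
      obtain ⟨w, hw, hw0⟩ := (H1.isPGroup_pCore (p := 2) (G := C)).exists_fixed_point_of_prime_dvd_card_of_fixed_point
        (Fin n → F) (a := 0) (by simp; omega) fun g => map_zero (π g.1)
      have hw' : ∀ g ∈ pCore 2 C, π g w = w := fun g hg => hw ⟨g, hg⟩
      obtain ⟨i, hi⟩ := Function.ne_iff.1 hw0
      have hi1 : w i = 1 := (f01 _).resolve_left fun e => hi e.symm
      intro p hp
      have hd : ∀ d : Fin n → F, d i = 0 → π p d = d := fun d hd => by
        let τ : (Fin n → F) →ₗ[F] (Fin n → F) := LinearMap.id + (LinearMap.proj i).smulRight d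
        obtain ⟨m, -, mC', e⟩ := lift (LinearEquiv.ofInvolutive τ fun x => by
          simp [τ, hd, add_assoc, ← add_smul, CharTwo.add_self_eq_zero]) 0
        have e1 : π ⟨m, mC'⟩ w = w + d := by
          rw [← hπ ⟨m, mC'⟩ (w, 0), e]
          show τ w = _
          simp [τ, hi1]
        have e2 := congrArg (π ⟨m, mC'⟩) (hw' _ ((inferInstance : (pCore 2 C).Normal).conj_mem' p hp ⟨m, mC'⟩))
        rw [← Module.End.mul_apply, ← map_mul, ← mul_assoc, ← mul_assoc, mul_inv_cancel, one_mul,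
          map_mul, Module.End.mul_apply, e1, map_add, hw' p hp] at e2
        exact add_left_cancel e2
      refine LinearMap.ext fun x => ?_
      have : x = x i • w + (x - x i • w) := by simp
      rw [this, map_add, map_smul, hw' p hp, hd _ (by simp [hi1])]; rfl
    · obtain ⟨a, ha⟩ := kpow g.1 g.2
      have : (g.1.1 * g.1.1) * (g.1.1 * g.1.1) = 1 := by rw [ha, csq]
      simpa [pow_succ, mul_assoc] using this
  rw [hP] at hQ
  have mQ : ∀ g, g ∈ Q ↔ ∃ h : g ∈ C, (⟨g, h⟩ : C) ∈ π.ker := fun g => by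
    rw [hQ]; exact ⟨fun ⟨x, hx, e⟩ => by subst e; exact ⟨x.2, hx⟩, fun ⟨h, k⟩ => ⟨_, k, rfl⟩⟩
  have UQ : U ≤ Q := fun u hu => (mQ u).2 ⟨UC hu, Uk u hu⟩
  have cQ : ∀ v, c v ∈ Q := fun v => UQ ((hU _).2 ⟨v, rfl⟩)
  have liftQ : ∀ l : (Fin n → F) →ₗ[F] F, ∃ m ∈ Q, ∀ v, α m v = (v.1, v.2 + l v.1) := fun l => by
    obtain ⟨m, -, h1, e⟩ := lift (LinearEquiv.refl _ _) l
    exact ⟨m, (mQ m).2 ⟨h1, LinearMap.ext fun w => by rw [← hπ ⟨m, h1⟩ (w, 0), e]; rfl⟩, e⟩
  have cen : ∀ g ∈ centralizer (Q : Set G), ∃ a, c (0, a) = g := fun g hg => by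
    obtain ⟨v, rfl⟩ := (hU g).1 ((hker g).1 (LinearMap.ext fun v => ci (by
      rw [← hα, ← hg _ (cQ v), mul_inv_cancel_right]; rfl)))
    refine ⟨v.2, congrArg c (Prod.ext (funext fun i => ?_) rfl)⟩
    obtain ⟨m, hm, e⟩ := liftQ (LinearMap.proj i)
    have := hα m v
    rw [hg m hm, mul_inv_cancel_right, e] at this
    have h9 : v.1 i = 0 := by simpa using congrArg Prod.snd (ci this)
    exact h9.symm
  have zQ : c (0, 1) ∈ centralizer (Q : Set G) := fun g hg => zc ⟨g, ((mQ g).1 hg).1⟩ 1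
  have z1 : c (0, 1) ≠ 1 := fun e => by simpa using ci (e.trans c0.symm)
  refine ⟨⟨⟨cQ _, orderOf_eq_prime (by rw [pow_two, csq]) z1, zQ, fun a ha b hb => ?_,
    fun a ha => ?_⟩, le_antisymm (fun g hg => ?_) (zpowers_le.2 ⟨cQ _, zQ⟩)⟩, UQ, fun h => ?_, ?_, ?_⟩
  · obtain ⟨x, e⟩ := kmul _ ((mQ a).1 ha).2 _ ((mQ b).1 hb).2
    simp only at e
    rw [commutatorElement_def, e]
    simpa [mul_assoc] using mz x
  · obtain ⟨x, e⟩ := kpow _ ((mQ a).1 ha).2
    rw [pow_two, e]; exact mz x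
  · obtain ⟨a, rfl⟩ := cen g hg.2
    exact mz a
  · obtain ⟨a, e⟩ := cen _ (h (cQ (Pi.single ⟨0, hn⟩ 1, 0)))
    simpa using congrFun (congrArg Prod.fst (ci e)) ⟨0, hn⟩
  · let lam : Q →* Multiplicative ((Fin n → F) →ₗ[F] F) := MonoidHom.mk'
      (fun g => Multiplicative.ofAdd (LinearMap.snd F _ _ ∘ₗ α g ∘ₗ LinearMap.inl F _ _)) fun g h => by
        rw [← ofAdd_add]
        refine congrArg _ (LinearMap.ext fun w => ?_)
        have := kα _ ((mQ h).1 h.2).2 (w, 0)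
        simp only at this
        simp only [coe_mul, map_mul, LinearMap.comp_apply, LinearMap.inl_apply, LinearMap.snd_apply,
          Module.End.mul_apply, LinearMap.add_apply]
        conv_lhs => rw [this, map_add, fix0 _ ((mQ g).1 g.2).1]
        rfl
    have hs : lam.range = ⊤ := MonoidHom.range_eq_top.2 fun l => by
      obtain ⟨m, hm, e⟩ := liftQ l.toAdd
      exact ⟨⟨m, hm⟩, congrArg Multiplicative.ofAdd (LinearMap.ext fun w => by simp [e]; rfl)⟩
    have hk : lam.ker = U.subgroupOf Q := by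
      ext g
      rw [MonoidHom.mem_ker, mem_subgroupOf, ← hker]
      constructor
      · intro e
        refine LinearMap.ext fun v => ?_
        have h1 : (α g (v.1, 0)).2 = 0 := LinearMap.congr_fun (congrArg Multiplicative.toAdd e) v.1
        have := kα _ ((mQ g).1 g.2).2 v
        simp only at this
        rw [this, h1]; simp
      · intro e
        exact congrArg Multiplicative.ofAdd (LinearMap.ext fun w => by simp [e])
    have h1 := lam.ker.card_mul_index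
    rw [index_ker, hs, hk, Nat.card_congr (subgroupOfEquivOfLe UQ).toEquiv, hUc, card_top,
      Nat.card_congr (Multiplicative.toAdd.trans (LinearEquiv.piRing F F (Fin n) F).toEquiv)] at h1
    rw [← h1]; simp; ring
  · let K : Subgroup G :=
      { carrier := {g | g ∈ M ∧ g ∈ C ∧ ∀ w, (α g (w, 0)).2 = 0}
        one_mem' := ⟨one_mem _, one_mem _, by simp⟩
        mul_mem' := fun {g h} hg hh => ⟨mul_mem hg.1 hh.1, mul_mem hg.2.1 hh.2.1, fun w => by
          rw [map_mul, Module.End.mul_apply, split g hg.2.1, hh.2.2]; simp [hg.2.2]⟩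
        inv_mem' := fun {g} hg => ⟨inv_mem hg.1, inv_mem hg.2.1, fun w => by
          have := congrArg Prod.snd (split g hg.2.1 (α g⁻¹ (w, 0)))
          rw [← Module.End.mul_apply, ← map_mul, mul_inv_cancel, map_one] at this
          simpa [hg.2.2] using this.symm⟩ }
    have KC : K ≤ C := fun g hg => hg.2.1
    have QK : Q ⊓ K = ⊥ := eq_bot_iff.2 fun g hg => Minj g hg.2.1 (LinearMap.ext fun v => by
      have := kα _ ((mQ g).1 hg.1).2 v
      simp only at this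
      rw [this, hg.2.2.2]; simp)
    have liftK : ∀ A : (Fin n → F) ≃ₗ[F] (Fin n → F), ∃ k : K, π ⟨k, KC k.2⟩ = A := fun A => by
      obtain ⟨m, h0, h1, e⟩ := lift A 0
      exact ⟨⟨m, h0, h1, fun w => by simp [e]⟩,
        LinearMap.ext fun w => by rw [← hπ ⟨m, h1⟩ (w, 0), e]; rfl⟩
    refine ⟨K, KC, QK, le_antisymm (sup_le (fun g hg => ((mQ g).1 hg).1) KC) fun g hg => ?_, ?_⟩
    · obtain ⟨k, e⟩ := liftK (LinearMap.GeneralLinearGroup.toLinearEquiv (π.toHomUnits ⟨g, hg⟩))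
      have e' : π ⟨k, KC k.2⟩ = π ⟨g, hg⟩ := e
      have : g * k⁻¹ ∈ Q := (mQ _).2 ⟨mul_mem hg (inv_mem (KC k.2)), by
        rw [MonoidHom.mem_ker, show (⟨g * k⁻¹, _⟩ : C) = ⟨g, hg⟩ * ⟨k, KC k.2⟩⁻¹ from rfl, map_mul,
          ← e', ← map_mul, mul_inv_cancel, map_one]⟩
      simpa using mul_mem (mem_sup_left this) (mem_sup_right k.2 : k.1 ∈ Q ⊔ K)
    · refine ⟨(MulEquiv.ofBijective (π.comp (inclusion KC)).toHomUnits ⟨?_, fun A => ?_⟩).trans
        GeneralLinearGroup.toLin.symm⟩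
      · rw [injective_iff_map_eq_one]
        intro k hk
        have : k.1 ∈ Q ⊓ K := ⟨(mQ _).2 ⟨KC k.2, congrArg Units.val hk⟩, k.2⟩
        rw [QK] at this
        exact Subtype.ext this
      · obtain ⟨k, e⟩ := liftK (LinearMap.GeneralLinearGroup.toLinearEquiv A)
        exact ⟨k, Units.ext e⟩

theorem holo (n : ℕ) (hn : 1 ≤ n) (U M : Subgroup G) [hN : U.Normal]
    (hU : IsElementaryAbelian 2 U) (hUcard : Nat.card ↥U = 2 ^ (n + 1)) (hUM : U ⊓ M = ⊥)
    (hUM' : U ⊔ M = ⊤) (hfaith : ∀ m ∈ M, (∀ u ∈ U, m * u * m⁻¹ = u) → m = 1)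
    (hfull : ∀ φ : ↥U ≃* ↥U, ∃ m ∈ M, ∀ u : ↥U, ((φ u : ↥U) : G) = m * u * m⁻¹) (Z : Subgroup G)
    (hZU : Z ≤ U) (hZ : Nat.card ↥Z = 2) (Q : Subgroup G)
    (hQ : Q = (pCore 2 ↥(centralizer (Z : Set G))).map (centralizer (Z : Set G)).subtype) :
    IsExtraspecial 2 ↥Q ∧ Nat.card ↥Q = 2 ^ (2 * n + 1) ∧
      (∃ E : Subgroup G, E ≤ Q ∧ IsElementaryAbelian 2 E ∧ Nat.card ↥E = 2 ^ (n + 1)) ∧
      IsLargeExtraspecial Q ∧ ∃ K : Subgroup G, K ≤ centralizer (Z : Set G) ∧ Q ⊓ K = ⊥ ∧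
        Q ⊔ K = centralizer (Z : Set G) ∧ Nonempty (↥K ≃* GL (Fin n) F) := by
  obtain ⟨⟨z, hz⟩, hz1⟩ := (Nat.card_eq_two_iff' (1 : Z)).1 hZ
  have z1 : z ≠ 1 := fun e => hz1.1 (Subtype.ext e)
  have hZz : Z = zpowers z := le_antisymm (fun x hx => by
    by_cases e : x = 1
    · exact e ▸ one_mem _
    · have : x = z := congrArg Subtype.val (hz1.2 ⟨x, hx⟩ fun e' => e (congrArg Subtype.val e'))
      exact this ▸ mem_zpowers _) (zpowers_le.2 hz)
  obtain ⟨φ, hφ⟩ := coords U hU hUcard (hZU hz) z1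
  obtain ⟨c, hc⟩ : ∃ c : (Fin n → F) × F → G, ∀ v, c v = φ (Multiplicative.ofAdd v) := ⟨_, fun _ => rfl⟩
  have ci : Function.Injective c := fun v w e =>
    Multiplicative.ofAdd.injective (φ.injective (Subtype.ext (by rwa [hc, hc] at e)))
  have ca : ∀ v w, c (v + w) = c v * c w := fun v w => by rw [hc, hc, hc, ofAdd_add, map_mul]; rfl
  have mU : ∀ x, x ∈ U ↔ ∃ v, c v = x := fun x =>
    ⟨fun h => ⟨(φ.symm ⟨x, h⟩).toAdd, by simp [hc]⟩, fun ⟨v, e⟩ => e ▸ hc v ▸ (φ _).2⟩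
  obtain ⟨α, hα⟩ : ∃ α : G →* Module.End F ((Fin n → F) × F), ∀ g v, g * c v * g⁻¹ = c (α g v) := by
    choose f hf using fun g v => (mU _).1 (hN.conj_mem _ ((mU _).2 ⟨v, rfl⟩) g)
    exact ⟨{ toFun := fun g => (AddMonoidHom.mk' (f g) fun v w => ci (by
                rw [ca, hf, hf, hf, ca]; group)).toZModLinearMap 2
             map_one' := LinearMap.ext fun v => ci ((hf 1 v).trans (by simp))
             map_mul' := fun g h => LinearMap.ext fun v => ci ((hf (g * h) v).trans (by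
                have : c (f g (f h v)) = _ := hf g (f h v)
                refine Eq.trans ?_ this.symm
                rw [hf]; group)) }, fun g v => (hf g v).symm⟩
  have hdec : ∀ g : G, ∃ u ∈ U, ∃ m ∈ M, g = u * m := fun g => by
    have : g ∈ ((U ⊔ M : Subgroup G) : Set G) := by rw [hUM']; trivial
    rw [normal_mul] at this
    obtain ⟨u, hu, m, hm, e⟩ := this
    exact ⟨u, hu, m, hm, e.symm⟩
  have hU1 : ∀ u ∈ U, α u = 1 := fun u hu => LinearMap.ext fun v => ci (by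
    obtain ⟨w, rfl⟩ := (mU u).1 hu
    rw [← hα, ← ca, add_comm, ca, mul_inv_cancel_right]; rfl)
  have hker : ∀ g, α g = 1 ↔ g ∈ U := fun g => ⟨fun e => by
    obtain ⟨u, hu, m, hm, rfl⟩ := hdec g
    rw [map_mul, hU1 u hu, one_mul] at e
    rw [hfaith m hm fun x hx => by
      obtain ⟨v, rfl⟩ := (mU x).1 hx
      rw [hα, e]; rfl, mul_one]
    exact hu, hU1 g⟩
  have hz' : c (0, 1) = z := (hc _).trans hφ
  obtain ⟨h1, h2, h3, h4, h5⟩ := main hn U M hUM c ci ca mU α hα hker (fun L => by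
    obtain ⟨m, hm, e⟩ := hfull (φ.symm.trans ((AddEquiv.toMultiplicative L.toAddEquiv).trans φ))
    refine ⟨m, hm, fun v => ci ?_⟩
    rw [← hα, hc, ← e, hc]; simp) hdec hUcard _ (by rw [hZz, hz']) Q hQ
  have hctr : (center Q).map Q.subtype = Z := by
    rw [hZz, ← hz', ← h1.ctr]
    ext x
    constructor
    · rintro ⟨y, hy, rfl⟩
      exact ⟨y.2, fun g hg => congrArg Subtype.val (mem_center_iff.1 hy ⟨g, hg⟩)⟩
    · exact fun hx => ⟨⟨x, hx.1⟩, mem_center_iff.2 fun g => Subtype.ext (hx.2 g g.2), rfl⟩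
  have cU : ∀ g, (∀ u ∈ U, u * g = g * u) → g ∈ U := fun g hg => (hker g).1
    (LinearMap.ext fun v => ci (by rw [← hα, ← hg _ ((mU _).2 ⟨v, rfl⟩), mul_inv_cancel_right]; rfl))
  refine ⟨h1.es h3, h4, ⟨U, h2, hU, hUcard⟩, ⟨h1.es h3, ?_, ?_, fun K hK hQK => ?_⟩, h5⟩
  · rw [hctr, hZz, ← hz', ← h1.ctr]
    exact le_antisymm (le_inf (fun g hg => h2 (cU g fun u hu => hg u (h2 hu))) le_rfl) inf_le_right
  · rw [hctr, hQ]
    exact H7.le_nrm_map_subtype _
  · have hKU : K ⊓ U = ⊥ := inf_eq_bot_of_coprime (by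
      rw [hUcard]; exact Nat.Coprime.pow_right _ (Nat.coprime_two_right.2 hK))
    refine eq_bot_iff.2 fun k hk => ?_
    rw [← hKU]
    refine ⟨hk, cU k fun u hu => ?_⟩
    have : u * k * u⁻¹ * k⁻¹ ∈ K ⊓ U :=
      ⟨K.mul_mem ((mem_normalizer_iff.1 (hQK (h2 hu)) k).1 hk) (K.inv_mem hk), by
        rw [mul_assoc u, mul_assoc u]; exact U.mul_mem hu (hN.conj_mem _ (U.inv_mem hu) k)⟩
    rw [hKU, mem_bot, mul_inv_eq_one, mul_inv_eq_iff_eq_mul] at this
    exact this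

end H2.Hol
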