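import Mathlib

set_option autoImplicit false

namespace H2

/-- a cyclic grading with trivial zero component -/
structure ZGr (n : ℕ) [NeZero n] (R L : Type*) [CommRing R] [LieRing L] [LieAlgebra R L] where
  π : ZMod n → L →ₗ[R] L
  sum : ∀ x, ∑ i, π i x = x
  idem : ∀ i x, π i (π i x) = π i x
  br : ∀ i k x y, π i x = x → π (i + k) ⁅x, y⁆ = ⁅x, π k y⁆
  zero : ∀ x, π 0 x = 0

namespace ZGr

variable {n : ℕ} [NeZero n] {R L : Type*} [CommRing R] [LieRing L] [LieAlgebra R L]
  (g : ZGr n R L)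

/-- homogeneous ideals -/
def H (K : LieIdeal R L) : Prop := ∀ i, ∀ x ∈ K, g.π i x ∈ K

theorem lie_ind {K V : LieIdeal R L} (hK : g.H K) (W : Submodule R L)
    (h : ∀ i, ∀ a ∈ K, g.π i a = a → ∀ b ∈ V, ⁅a, b⁆ ∈ W) : ∀ x ∈ ⁅K, V⁆, x ∈ W := by
  intro x hx
  have hx' : x ∈ LieSubmodule.toSubmodule (⁅K, V⁆ : LieIdeal R L) := hx
  rw [LieSubmodule.lieIdeal_oper_eq_linear_span'] at hx'
  refine (Submodule.span_le.2 ?_) hx'
  rintro _ ⟨a, ha, b, hb, rfl⟩
  rw [← g.sum a, sum_lie]
  exact W.sum_mem (fun i _ => h i _ (hK i a ha) (g.idem i a) b hb)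

theorem H_lie {K V : LieIdeal R L} (hK : g.H K) (hV : g.H V) : g.H ⁅K, V⁆ := by
  intro i x hx
  refine g.lie_ind hK (((⁅K, V⁆ : LieIdeal R L) : Submodule R L).comap (g.π i))
    (fun j a ha hj b hb => ?_) x hx
  have := g.br j (i - j) a b hj
  rw [add_sub_cancel] at this
  rw [Submodule.mem_comap, this]
  exact LieSubmodule.lie_mem_lie ha (hV _ b hb)

theorem H_der {K : LieIdeal R L} (hK : g.H K) (m : ℕ) : g.H ((fun I : LieIdeal R L => ⁅I, I⁆)^[m] K) := by
  induction m with
  | zero => exact hK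
  | succ m ih => rw [Function.iterate_succ_apply']; exact g.H_lie ih ih

theorem H_it {K V : LieIdeal R L} (hK : g.H K) (hV : g.H V) (m : ℕ) :
    g.H ((fun I : LieIdeal R L => ⁅K, I⁆)^[m] V) := by
  induction m with
  | zero => exact hV
  | succ m ih => rw [Function.iterate_succ_apply']; exact g.H_lie hK ih

omit [NeZero n] in
theorem der_le (K : LieIdeal R L) (m : ℕ) : (fun I : LieIdeal R L => ⁅I, I⁆)^[m] K ≤ K := by
  induction m with
  | zero => exact le_rfl
  | succ m ih => rw [Function.iterate_succ_apply']; exact (LieSubmodule.lie_le_right _ _).trans ih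

theorem krek (k : ℕ) : ∀ K : LieIdeal R L, g.H K →
    ∀ x ∈ (fun I : LieIdeal R L => ⁅I, I⁆)^[2 ^ k - 1] K,
      x ∈ LieSubalgebra.lieSpan R L {x | x ∈ K ∧ ∃ j : ZMod n, k < j.val ∧ g.π j x = x} := by
  induction k with
  | zero =>
    intro K hK x hx
    rw [← g.sum x]
    refine sum_mem (fun j _ => ?_)
    by_cases hj : j = 0
    · rw [hj, g.zero]; exact zero_mem _
    · exact LieSubalgebra.subset_lieSpan ⟨hK j x hx, j, ZMod.val_pos.2 hj, g.idem j x⟩
  | succ k ih =>
    intro K hK x hx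
    have h1 : 1 ≤ 2 ^ k := Nat.one_le_two_pow
    rw [show 2 ^ (k + 1) - 1 = (2 ^ k - 1) + ((2 ^ k - 1) + 1) by rw [pow_succ]; omega,
      Function.iterate_add_apply] at hx
    refine (LieSubalgebra.lieSpan_le.2 ?_) (ih _ (g.H_der hK _) x hx)
    rintro y ⟨hy, j, hj, e⟩
    by_cases h2 : k + 1 < j.val
    · exact LieSubalgebra.subset_lieSpan ⟨der_le K _ hy, j, h2, e⟩
    have h3 : j.val = k + 1 := by omega
    have key : ∀ z ∈ LieSubalgebra.lieSpan R L {x | x ∈ K ∧ ∃ j : ZMod n, k < j.val ∧ g.π j x = x},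
        ∀ w ∈ K, g.π j ⁅z, w⁆ ∈
          LieSubalgebra.lieSpan R L {x | x ∈ K ∧ ∃ j : ZMod n, k + 1 < j.val ∧ g.π j x = x} := by
      intro z hz
      induction hz using LieSubalgebra.lieSpan_induction with
      | mem z hz =>
        obtain ⟨hz, i, hi, e⟩ := hz
        intro w hw
        have := g.br i (j - i) z w e
        rw [add_sub_cancel] at this
        rw [this]
        by_cases hij : i = j
        · rw [hij, sub_self, g.zero, lie_zero]; exact zero_mem _
        · have h4 : i.val ≠ j.val := fun h => hij (ZMod.val_injective n h)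
          refine LieSubalgebra.lie_mem _ (LieSubalgebra.subset_lieSpan ⟨hz, i, by omega, e⟩)
            (LieSubalgebra.subset_lieSpan ⟨hK _ w hw, j - i, ?_, g.idem _ _⟩)
          have h5 := ZMod.val_add i (j - i)
          rw [add_sub_cancel] at h5
          have h6 := ZMod.val_lt i
          have h7 := ZMod.val_lt (j - i)
          by_cases h8 : i.val + (j - i).val < n
          · rw [Nat.mod_eq_of_lt h8] at h5; omega
          · rw [Nat.mod_eq_sub_mod (by omega), Nat.mod_eq_of_lt (by omega)] at h5; omega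
      | zero => intro w _; rw [zero_lie, map_zero]; exact zero_mem _
      | add a b _ _ ha hb => intro w hw; rw [add_lie, map_add]; exact add_mem (ha w hw) (hb w hw)
      | smul c a _ ha =>
        intro w hw; rw [smul_lie, map_smul]; exact LieSubalgebra.smul_mem _ _ (ha w hw)
      | lie a b _ _ ha hb =>
        intro w hw
        rw [lie_lie, map_sub]
        exact sub_mem (ha _ (K.lie_mem hw)) (hb _ (K.lie_mem hw))
    rw [Function.iterate_succ_apply'] at hy
    rw [← e]
    exact g.lie_ind (g.H_der hK _) ((LieSubalgebra.lieSpan R L _).toSubmodule.comap (g.π j))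
      (fun i a ha _ b hb => key a (ih K hK a ha) b (der_le K _ hb)) y hy

theorem kreknin {K : LieIdeal R L} (hK : g.H K) :
    (fun I : LieIdeal R L => ⁅I, I⁆)^[2 ^ (n - 1) - 1] K = ⊥ := by
  rw [eq_bot_iff]
  intro x hx
  have := g.krek (n - 1) K hK x hx
  have h2 : LieSubalgebra.lieSpan R L {x | x ∈ K ∧ ∃ j : ZMod n, n - 1 < j.val ∧ g.π j x = x} ≤ ⊥ := by
    rw [LieSubalgebra.lieSpan_le]
    rintro y ⟨-, j, hj, -⟩
    have := ZMod.val_lt j
    omega
  exact h2 this

theorem grow {p : ℕ} [Fact p.Prime] (T : Finset (ZMod p)) (hT : T.Nonempty) {a : ZMod p}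
    (ha : a ≠ 0) : min p (T.card + 1) ≤ (T ∪ T.image (· - a)).card := by
  by_cases h : T.image (· - a) ⊆ T
  · obtain ⟨t, ht⟩ := hT
    have h1 : ∀ k : ℕ, t - k * a ∈ T := by
      intro k
      induction k with
      | zero => simpa using ht
      | succ k ih =>
        have := h (Finset.mem_image_of_mem _ ih)
        convert this using 1
        push_cast; ring
    have h2 : T = Finset.univ := by
      rw [Finset.eq_univ_iff_forall]
      intro x
      have := h1 ((t - x) / a).val
      rwa [ZMod.natCast_zmod_val, div_mul_cancel₀ _ ha, sub_sub_cancel] at this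
    refine (min_le_left _ _).trans ?_
    rw [h2, Finset.union_eq_left.2 (Finset.subset_univ _), Finset.card_univ, ZMod.card]
  · refine (min_le_right _ _).trans (Finset.card_lt_card ⟨Finset.subset_union_left, fun h' => h ?_⟩)
    exact Finset.subset_union_right.trans h'

theorem kk_step {p : ℕ} [Fact p.Prime] (g : ZGr p R L) {K V W : LieIdeal R L} (hK : g.H K)
    (hV : g.H V) (h : ⁅⁅K, K⁆, V⁆ ≤ W) : (fun I : LieIdeal R L => ⁅K, I⁆)^[p - 1] V ≤ W := by
  have hact : ∀ l : List L, ∀ v ∈ V, (l.map (LieAlgebra.ad R L)).prod v ∈ V := by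
    intro l v hv
    induction l with
    | nil => exact hv
    | cons z l ih => exact V.lie_mem ih
  have s1 : ∀ l : List L, (∀ y ∈ l, y ∈ K) → ∀ y ∈ K, ∀ v ∈ V,
      (l.map (LieAlgebra.ad R L)).prod ⁅y, v⁆ - ⁅y, (l.map (LieAlgebra.ad R L)).prod v⁆ ∈ W := by
    intro l hl y hy v hv
    induction l with
    | nil => simp
    | cons z l ih =>
      have h1 := W.lie_mem (x := z) (ih (fun y hy => hl y (List.mem_cons_of_mem _ hy)))
      have h2 := h (LieSubmodule.lie_mem_lie (LieSubmodule.lie_mem_lie (hl z List.mem_cons_self) hy)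
        (hact l v hv))
      have := W.add_mem h1 h2
      simp only [List.map_cons, List.prod_cons, Module.End.mul_apply, LieAlgebra.ad_apply]
      rw [lie_sub, lie_lie, sub_add_sub_cancel] at this
      exact this
  have s2 : ∀ l : List L, (∀ y ∈ l, y ∈ K ∧ ∃ a, g.π a y = y) → ∃ T : Finset (ZMod p),
      min p (l.length + 1) ≤ T.card ∧ ∀ i ∈ T, ∀ v ∈ V, g.π i v = v →
        (l.map (LieAlgebra.ad R L)).prod v ∈ W := by
    intro l hl
    induction l with
    | nil =>
      refine ⟨{0}, by simp, fun i hi v _ e => ?_⟩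
      rw [Finset.mem_singleton.1 hi, g.zero] at e
      rw [← e, map_zero]; exact W.zero_mem
    | cons z l ih =>
      obtain ⟨T, hT, hT'⟩ := ih (fun y hy => hl y (List.mem_cons_of_mem _ hy))
      obtain ⟨hz, a, ea⟩ := hl z List.mem_cons_self
      by_cases ha : a = 0
      · refine ⟨Finset.univ, by simp [ZMod.card], fun i _ v _ _ => ?_⟩
        rw [ha, g.zero] at ea
        simp [← ea]
      have hne : T.Nonempty := by
        rw [← Finset.card_pos]
        have := (Fact.out : p.Prime).pos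
        omega
      refine ⟨T ∪ T.image (· - a), le_trans (by simp only [List.length_cons]; omega) (grow T hne ha),
        fun i hi v hv e => ?_⟩
      simp only [List.map_cons, List.prod_cons, Module.End.mul_apply, LieAlgebra.ad_apply]
      rcases Finset.mem_union.1 hi with hi | hi
      · exact W.lie_mem (hT' i hi v hv e)
      · obtain ⟨t, ht, rfl⟩ := Finset.mem_image.1 hi
        have h1 := hT' t ht ⁅z, v⁆ (V.lie_mem hv) (by
          have := g.br a (t - a) z v ea
          rwa [add_sub_cancel, e] at this)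
        have := W.sub_mem h1 (s1 l (fun y hy => (hl y (List.mem_cons_of_mem _ hy)).1) z hz v hv)
        rwa [sub_sub_cancel] at this
  have s3 : ∀ m, ∀ U : LieIdeal R L, (∀ l : List L, l.length = m →
      (∀ y ∈ l, y ∈ K ∧ ∃ a, g.π a y = y) → ∀ u ∈ U, (l.map (LieAlgebra.ad R L)).prod u ∈ W) →
      (fun I : LieIdeal R L => ⁅K, I⁆)^[m] U ≤ W := by
    intro m
    induction m with
    | zero => intro U hU u hu; exact hU [] rfl (by simp) u hu
    | succ m ih =>
      intro U hU
      rw [Function.iterate_succ_apply]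
      refine ih _ (fun l hl hl' u hu => ?_)
      refine g.lie_ind hK ((W : Submodule R L).comap (l.map (LieAlgebra.ad R L)).prod)
        (fun i a ha e b hb => ?_) u hu
      have := hU (l ++ [a]) (by simp [hl]) (fun y hy => by
        rcases List.mem_append.1 hy with hy | hy
        · exact hl' y hy
        · rw [List.mem_singleton.1 hy]; exact ⟨ha, i, e⟩) b hb
      simpa using this
  refine s3 _ V (fun l hl hl' v hv => ?_)
  obtain ⟨T, hT, hT'⟩ := s2 l hl'
  have hp := (Fact.out : p.Prime).pos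
  have : T = Finset.univ := Finset.eq_univ_of_card _ (le_antisymm (Finset.card_le_univ _) (by
    rw [ZMod.card]; omega))
  subst this
  rw [← g.sum v, map_sum]
  exact W.toSubmodule.sum_mem (fun i _ => hT' i (Finset.mem_univ _) _ (hV i v hv) (g.idem i v))

theorem kk_le {p : ℕ} [Fact p.Prime] (g : ZGr p R L) {K : LieIdeal R L} (hK : g.H K) (k : ℕ) :
    (fun I : LieIdeal R L => ⁅K, I⁆)^[(p - 1) * k + 1] K ≤
      (fun I : LieIdeal R L => ⁅⁅K, K⁆, I⁆)^[k] ⁅K, K⁆ := by
  induction k with
  | zero => simp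
  | succ k ih =>
    rw [show (p - 1) * (k + 1) + 1 = (p - 1) + ((p - 1) * k + 1) by ring,
      Function.iterate_add_apply, Function.iterate_succ_apply' _ k]
    have hm : Monotone (fun I : LieIdeal R L => ⁅K, I⁆) := fun _ _ h => LieSubmodule.mono_lie_right _ h
    exact (hm.iterate _ ih).trans
      (g.kk_step hK (g.H_it (g.H_lie hK hK) (g.H_lie hK hK) k) le_rfl)

theorem kk_nil {p : ℕ} [Fact p.Prime] (g : ZGr p R L) (s : ℕ) : ∀ K : LieIdeal R L, g.H K →
    (fun I : LieIdeal R L => ⁅I, I⁆)^[s] K = ⊥ →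
    (fun I : LieIdeal R L => ⁅K, I⁆)^[∑ i ∈ Finset.range s, (p - 1) ^ i] K = ⊥ := by
  induction s with
  | zero => intro K _ h; simpa using h
  | succ s ih =>
    intro K hK h
    rw [geom_sum_succ, eq_bot_iff, ← ih _ (g.H_lie hK hK) h]
    exact g.kk_le hK _

theorem three (g : ZGr 3 R L) : (fun I : LieIdeal R L => ⁅(⊤ : LieIdeal R L), I⁆)^[2] ⊤ = ⊥ := by
  have ht : g.H ⊤ := fun _ _ _ => trivial
  have hz : ∀ i j a b, g.π i a = a → g.π j b = b → i + j = 0 → ⁅a, b⁆ = 0 := by
    intro i j a b ha hb h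
    have := g.br i j a b ha
    rw [h, g.zero, hb] at this
    exact this.symm
  rw [eq_bot_iff]
  intro x hx
  refine g.lie_ind (V := ⁅(⊤ : LieIdeal R L), (⊤ : LieIdeal R L)⁆) ht ⊥ (fun i a _ ea y hy => ?_) x hx
  refine g.lie_ind ht (LinearMap.ker (LieAlgebra.ad R L a)) (fun j b _ eb c _ => ?_) y hy
  rw [← g.sum c, lie_sum]
  refine Submodule.sum_mem _ (fun k _ => ?_)
  have ec := g.idem k c
  generalize g.π k c = d at ec
  rw [LinearMap.mem_ker, LieAlgebra.ad_apply]
  have : ∀ i j k : ZMod 3, i = 0 ∨ j = 0 ∨ k = 0 ∨ j + k = 0 ∨ i + (j + k) = 0 ∨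
      (i + j = 0 ∧ i + k = 0) := by decide
  rcases this i j k with h | h | h | h | h | h
  · rw [← ea, h, g.zero, zero_lie]
  · rw [← eb, h, g.zero, zero_lie, lie_zero]
  · rw [← ec, h, g.zero, lie_zero, lie_zero]
  · rw [hz j k b d eb ec h, lie_zero]
  · exact hz i (j + k) a _ ea (by rw [g.br j k b d eb, ec]) h
  · rw [leibniz_lie, hz i j a b ea eb h.1, hz i k a d ea ec h.2, zero_lie, lie_zero, add_zero]

end ZGr

end H2
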