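import Cfsg.Agent.H2.KK1

set_option autoImplicit false

namespace H2

open scoped TensorProduct

theorem kk_grade {p : ℕ} [Fact p.Prime] {R L : Type*} [CommRing R] [LieRing L] [LieAlgebra R L]
    (w : R) (hw : w ^ p = 1) (hw' : ∑ i ∈ Finset.range p, w ^ i = 0) (f : Module.End R L)
    (hbr : ∀ x y, f ⁅x, y⁆ = ⁅f x, f y⁆) (hp : f ^ p = 1) (hs : ∑ j ∈ Finset.range p, f ^ j = 0)
    (u : R) (hu : ∀ x : L, (u * p) • x = x) : Nonempty (ZGr p R L) := by
  let e : AddChar (ZMod p) R := AddChar.zmodChar p hw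
  have hsum : ∑ i : ZMod p, e i = 0 := by
    rw [← hw']
    refine Finset.sum_nbij (fun i => i.val) (fun i _ => Finset.mem_range.2 (ZMod.val_lt i))
      (fun i _ j _ h => ZMod.val_injective p h) (fun j hj => ⟨(j : ZMod p), by simp,
        ZMod.val_cast_of_lt (by simpa using hj)⟩) (fun i _ => AddChar.zmodChar_apply hw i)
  have hneg : ∀ i, e (-i) * e i = 1 := fun i => by
    rw [← AddChar.map_add_eq_mul, neg_add_cancel, AddChar.map_zero_eq_one]
  have hep : ∀ i, e i ^ p = 1 := fun i => by
    rw [← AddChar.map_nsmul_eq_pow, nsmul_eq_mul, ZMod.natCast_self, zero_mul,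
      AddChar.map_zero_eq_one]
  let π : ZMod p → L →ₗ[R] L := fun i => u • ∑ j ∈ Finset.range p, (e (-i) • f) ^ j
  have hπ : ∀ i x, π i x = u • ∑ j ∈ Finset.range p, e (-i) ^ j • (f ^ j) x := by
    intro i x
    simp only [π, smul_pow, LinearMap.smul_apply, LinearMap.sum_apply]
  have eig : ∀ i x, f (π i x) = e i • π i x := by
    intro i x
    have h1 := mul_geom_sum (e (-i) • f) p
    rw [smul_pow, hep, hp, one_smul, sub_self, sub_mul, one_mul, sub_eq_zero] at h1
    have h2 : (e (-i) • f) (π i x) = π i x := by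
      have := LinearMap.congr_fun h1 x
      simp only [π, LinearMap.smul_apply, map_smul, Module.End.mul_apply] at this ⊢
      rw [this]
    rw [← h2, LinearMap.smul_apply, smul_smul, mul_comm, hneg, one_smul, map_smul]
    conv_rhs => rw [← h2]
    simp only [LinearMap.smul_apply, map_smul]
  have eigp : ∀ i x, f x = e i • x → ∀ j : ℕ, (f ^ j) x = e i ^ j • x := by
    intro i x h j
    induction j with
    | zero => simp
    | succ j ih => rw [pow_succ', Module.End.mul_apply, ih, map_smul, h, smul_smul, pow_succ]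
  have brp : ∀ j : ℕ, ∀ x y, (f ^ j) ⁅x, y⁆ = ⁅(f ^ j) x, (f ^ j) y⁆ := by
    intro j x y
    induction j with
    | zero => simp
    | succ j ih => simp only [pow_succ', Module.End.mul_apply, ih, hbr]
  refine ⟨⟨π, fun x => ?_, fun i x => ?_, fun i k x y h => ?_, fun x => ?_⟩⟩
  · simp only [hπ]
    rw [← Finset.smul_sum, Finset.sum_comm]
    simp only [← Finset.sum_smul]
    rw [Finset.sum_eq_single_of_mem 0 (Finset.mem_range.2 (Fact.out : p.Prime).pos)]
    · simp only [pow_zero, Finset.sum_const, Finset.card_univ, ZMod.card, nsmul_eq_mul, mul_one,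
        Module.End.one_apply, smul_smul, hu]
    · intro j hj hj0
      have hj1 : (j : ZMod p) ≠ 0 := by
        rw [Ne, ZMod.natCast_eq_zero_iff]
        exact Nat.not_dvd_of_pos_of_lt (Nat.pos_of_ne_zero hj0) (Finset.mem_range.1 hj)
      have : ∑ i : ZMod p, e (-i) ^ j = 0 := by
        rw [← hsum]
        refine Fintype.sum_equiv ((Equiv.neg _).trans (Equiv.mulLeft₀ (j : ZMod p) hj1)) _ _
          (fun i => ?_)
        rw [← AddChar.map_nsmul_eq_pow, nsmul_eq_mul]
        rfl
      rw [this, zero_smul]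
  · rw [hπ i (π i x)]
    simp only [eigp i _ (eig i x), smul_smul, ← mul_pow, hneg, one_pow, one_smul, Finset.sum_const,
      Finset.card_range]
    rw [← Nat.cast_smul_eq_nsmul R, smul_smul, hu]
  · have h1 : f x = e i • x := by rw [← h]; exact eig i x
    rw [hπ, hπ, lie_smul, lie_sum]
    congr 1
    refine Finset.sum_congr rfl (fun j _ => ?_)
    rw [brp, eigp i x h1, smul_lie, lie_smul, smul_smul, ← mul_pow, ← AddChar.map_add_eq_mul]
    congr 3
    ring
  · simp only [π, neg_zero, AddChar.map_zero_eq_one, one_smul, hs, smul_zero, LinearMap.zero_apply]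

theorem kk_ext0 {p : ℕ} [Fact p.Prime] {A L : Type*} [CommRing A] [LieRing L] (w : A)
    (h0 : ∑ i ∈ Finset.range p, w ^ i = 0) (f : Module.End ℤ L)
    (hbr : ∀ x y, f ⁅x, y⁆ = ⁅f x, f y⁆) (hp : f ^ p = 1) (hs : ∑ j ∈ Finset.range p, f ^ j = 0)
    (e : ℕ) (he : e.Coprime p) (hx : ∀ x : L, e • x = 0) : Nonempty (ZGr p A (A ⊗[ℤ] L)) := by
  obtain ⟨a, b, hab⟩ := (Nat.isCoprime_iff_coprime.2 he)
  have hf : ∀ s x, Module.End.baseChangeHom ℤ A L f (s ⊗ₜ x) = s ⊗ₜ f x := fun s x => rfl
  refine kk_grade w ?_ h0 (Module.End.baseChangeHom ℤ A L f) (fun x y => ?_)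
    (by rw [← map_pow, hp, map_one]) (by simp only [← map_pow, ← map_sum, hs, map_zero]) (b : _)
    (fun x => ?_)
  · have := mul_geom_sum w p
    rw [h0, mul_zero] at this
    exact sub_eq_zero.1 this.symm
  · induction x using TensorProduct.induction_on with
    | zero => rw [zero_lie, map_zero, zero_lie]
    | add x x' h h' => rw [add_lie, map_add, map_add, add_lie, h, h']
    | tmul s x =>
      induction y using TensorProduct.induction_on with
      | zero => rw [lie_zero, map_zero, lie_zero]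
      | add y y' h h' => rw [lie_add, map_add, map_add, lie_add, h, h']
      | tmul t y => simp only [LieAlgebra.ExtendScalars.bracket_tmul, hf, hbr]
  · have h1 : (e : A) • x = 0 := by
      rw [Nat.cast_smul_eq_nsmul]
      induction x using TensorProduct.induction_on with
      | zero => simp
      | add x x' h h' => rw [smul_add, h, h', add_zero]
      | tmul s x => rw [← TensorProduct.tmul_smul, hx, TensorProduct.tmul_zero]
    have h2 : ((b : A) * p) = 1 - a * e := by
      have := congrArg (Int.cast : ℤ → A) hab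
      push_cast at this
      linear_combination this
    rw [h2, sub_smul, one_smul, mul_smul, h1, smul_zero, sub_zero]

theorem kk_ext {p : ℕ} [Fact p.Prime] {L : Type*} [LieRing L] (f : Module.End ℤ L)
    (hbr : ∀ x y, f ⁅x, y⁆ = ⁅f x, f y⁆) (hp : f ^ p = 1) (hs : ∑ j ∈ Finset.range p, f ^ j = 0)
    (e : ℕ) (he : e.Coprime p) (hx : ∀ x : L, e • x = 0) :
    Nonempty (ZGr p (AdjoinRoot (Polynomial.cyclotomic p ℤ))
      (AdjoinRoot (Polynomial.cyclotomic p ℤ) ⊗[ℤ] L)) := by
  have h0 : ∑ i ∈ Finset.range p, AdjoinRoot.root (Polynomial.cyclotomic p ℤ) ^ i = 0 := by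
    have := (congrArg (AdjoinRoot.mk (Polynomial.cyclotomic p ℤ))
      (Polynomial.cyclotomic_prime ℤ p)).symm.trans AdjoinRoot.mk_self
    simpa [map_sum] using this
  exact kk_ext0 _ h0 f hbr hp hs e he hx

theorem kk_inj {p : ℕ} [Fact p.Prime] {L : Type*} [AddCommGroup L] (x : L)
    (h : (1 : AdjoinRoot (Polynomial.cyclotomic p ℤ)) ⊗ₜ[ℤ] x = 0) : x = 0 := by
  let B := AdjoinRoot.powerBasis' (Polynomial.cyclotomic.monic p ℤ)
  have hd : 0 < B.dim := by
    rw [AdjoinRoot.powerBasis'_dim, Polynomial.natDegree_cyclotomic]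
    exact Nat.totient_pos.2 (Fact.out : p.Prime).pos
  have h1 : B.basis.coord ⟨0, hd⟩ 1 = 1 := by
    have := B.basis_eq_pow ⟨0, hd⟩
    rw [pow_zero] at this
    rw [← this, Module.Basis.coord_apply, Module.Basis.repr_self, Finsupp.single_eq_same]
  have := congrArg ((TensorProduct.lid ℤ L).toLinearMap ∘ₗ LinearMap.rTensor L (B.basis.coord ⟨0, hd⟩)) h
  rw [map_zero, LinearMap.comp_apply, LinearMap.rTensor_tmul, h1] at this
  simpa using this

end H2
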