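import Cfsg.Agent.H2.KK2
import Cfsg.Agent.H7.RegP

set_option autoImplicit false

namespace H2

open scoped commutatorElement TensorProduct

variable {G : Type*} [Group G]

/-- lower central series of the whole group -/
abbrev gam (G : Type*) [Group G] (i : ℕ) : Subgroup G := (⊤ : Subgroup G).lowerCentralSeries i

theorem gam_comm {i j : ℕ} {g h : G} (hg : g ∈ gam G i) (hh : h ∈ gam G j) :
    ⁅g, h⁆ ∈ gam G (i + j + 1) :=
  H7.lcs_comm ⊤ j i (Subgroup.commutator_mem_commutator hg hh)

theorem gam_conj {i : ℕ} {h : G} (hh : h ∈ gam G i) (g : G) : g * h * g⁻¹ ∈ gam G i :=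
  (inferInstance : (gam G i).Normal).conj_mem h hh g

/-- relations of the graded ring -/
def grRel (G : Type*) [Group G] : AddSubgroup (FreeAbelianGroup (ℕ × G)) :=
  AddSubgroup.closure ({x | ∃ i g h, g ∈ gam G i ∧ h ∈ gam G i ∧
    x = FreeAbelianGroup.of (i, g * h) - (FreeAbelianGroup.of (i, g) + FreeAbelianGroup.of (i, h))} ∪
    {x | ∃ i g, (g ∉ gam G i ∨ g ∈ gam G (i + 1)) ∧ x = FreeAbelianGroup.of (i, g)})

/-- the graded ring attached to the lower central series -/
def GrL (G : Type*) [Group G] := FreeAbelianGroup (ℕ × G) ⧸ grRel G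

noncomputable instance : AddCommGroup (GrL G) :=
  inferInstanceAs (AddCommGroup (FreeAbelianGroup (ℕ × G) ⧸ grRel G))

namespace GrL

/-- quotient map -/
noncomputable def mk : FreeAbelianGroup (ℕ × G) →+ GrL G := QuotientAddGroup.mk' (grRel G)

/-- class of a group element -/
noncomputable def cls (i : ℕ) (g : G) : GrL G := mk (FreeAbelianGroup.of (i, g))

theorem mk_eq_zero {x : FreeAbelianGroup (ℕ × G)} (h : x ∈ grRel G) : mk x = 0 :=
  (QuotientAddGroup.eq_zero_iff x).2 h

theorem cls_mul {i : ℕ} {g h : G} (hg : g ∈ gam G i) (hh : h ∈ gam G i) :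
    cls i (g * h) = cls i g + cls i h := by
  rw [← sub_eq_zero, cls, cls, cls, ← map_add, ← map_sub]
  exact mk_eq_zero (AddSubgroup.subset_closure (Or.inl ⟨i, g, h, hg, hh, rfl⟩))

theorem cls_zero {i : ℕ} {g : G} (hg : g ∈ gam G (i + 1)) : cls i g = 0 :=
  mk_eq_zero (AddSubgroup.subset_closure (Or.inr ⟨i, g, Or.inr hg, rfl⟩))

theorem cls_not {i : ℕ} {g : G} (hg : g ∉ gam G i) : cls i g = 0 :=
  mk_eq_zero (AddSubgroup.subset_closure (Or.inr ⟨i, g, Or.inl hg, rfl⟩))

theorem cls_one (i : ℕ) : cls i (1 : G) = 0 := cls_zero (one_mem _)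

theorem cls_inv {i : ℕ} {g : G} (hg : g ∈ gam G i) : cls i g⁻¹ = - cls i g := by
  rw [eq_neg_iff_add_eq_zero, ← cls_mul (inv_mem hg) hg, inv_mul_cancel, cls_one]

theorem cls_conj {i : ℕ} {h : G} (hh : h ∈ gam G i) (g : G) : cls i (g * h * g⁻¹) = cls i h := by
  have h1 : ⁅g, h⁆ ∈ gam G (i + 1) := by
    have := gam_comm (i := 0) (g := g) trivial hh
    rwa [zero_add] at this
  rw [show g * h * g⁻¹ = ⁅g, h⁆ * h by rw [commutatorElement_def]; group,
    cls_mul (Subgroup.lowerCentralSeries_antitone _ (Nat.le_succ i) h1) hh, cls_zero h1, zero_add]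

theorem ind {P : GrL G → Prop} (h0 : P 0) (h1 : ∀ i g, g ∈ gam G i → P (cls i g))
    (h2 : ∀ x y, P x → P y → P (x + y)) (x : GrL G) : P x := by
  obtain ⟨y, rfl⟩ := QuotientAddGroup.mk'_surjective (grRel G) x
  change P (mk y)
  induction y using FreeAbelianGroup.induction_on with
  | zero => rw [map_zero]; exact h0
  | of a =>
    by_cases h : a.2 ∈ gam G a.1
    · exact h1 _ _ h
    · have := cls_not h
      change P (cls a.1 a.2)
      rw [this]; exact h0
  | neg a _ =>
    rw [map_neg]
    change P (- cls a.1 a.2)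
    by_cases h : a.2 ∈ gam G a.1
    · rw [← cls_inv h]; exact h1 _ _ (inv_mem h)
    · rw [cls_not h, neg_zero]; exact h0
  | add a b ha hb => rw [map_add]; exact h2 _ _ ha hb

theorem hom_ext {B : Type*} [AddCommGroup B] {f f' : GrL G →+ B}
    (h : ∀ i g, g ∈ gam G i → f (cls i g) = f' (cls i g)) : f = f' := by
  ext x
  induction x using ind with
  | h0 => simp
  | h1 i g hg => exact h i g hg
  | h2 x y hx hy => rw [map_add, map_add, hx, hy]

theorem ex_lift {B : Type*} [AddCommGroup B] (f : ∀ (i : ℕ) (g : G), g ∈ gam G i → B)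
    (hm : ∀ i g h (hg : g ∈ gam G i) (hh : h ∈ gam G i), f i (g * h) (mul_mem hg hh) = f i g hg + f i h hh)
    (hz : ∀ i g (hg : g ∈ gam G i), g ∈ gam G (i + 1) → f i g hg = 0) :
    ∃ F : GrL G →+ B, ∀ i g (hg : g ∈ gam G i), F (cls i g) = f i g hg := by
  classical
  let f0 : FreeAbelianGroup (ℕ × G) →+ B :=
    FreeAbelianGroup.lift (fun x => if h : x.2 ∈ gam G x.1 then f x.1 x.2 h else 0)
  have hf0 : ∀ i g, f0 (FreeAbelianGroup.of (i, g)) = if h : g ∈ gam G i then f i g h else 0 :=
    fun i g => FreeAbelianGroup.lift_apply_of _ _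
  have hk : grRel G ≤ f0.ker := by
    rw [grRel, AddSubgroup.closure_le]
    rintro _ (⟨i, g, h, hg, hh, rfl⟩ | ⟨i, g, hg | hg, rfl⟩)
    · simp only [SetLike.mem_coe, AddMonoidHom.mem_ker, map_sub, map_add, hf0, dif_pos hg,
        dif_pos hh, dif_pos (mul_mem hg hh), hm i g h hg hh, sub_self]
    · simp only [SetLike.mem_coe, AddMonoidHom.mem_ker, hf0, dif_neg hg]
    · have h1 : g ∈ gam G i := Subgroup.lowerCentralSeries_antitone _ (Nat.le_succ i) hg
      simp only [SetLike.mem_coe, AddMonoidHom.mem_ker, hf0, dif_pos h1, hz i g h1 hg]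
  refine ⟨QuotientAddGroup.lift _ f0 hk, fun i g hg => ?_⟩
  have := hf0 i g
  rw [dif_pos hg] at this
  exact this

theorem ex_br : ∃ b : GrL G →+ GrL G →+ GrL G, ∀ i j g h, g ∈ gam G i → h ∈ gam G j →
    b (cls i g) (cls j h) = cls (i + j + 1) ⁅g, h⁆ := by
  have h1 : ∀ i g, g ∈ gam G i → ∃ F : GrL G →+ GrL G, ∀ j h, h ∈ gam G j →
      F (cls j h) = cls (i + j + 1) ⁅g, h⁆ := by
    intro i g hg
    refine ex_lift (fun j h _ => cls (i + j + 1) ⁅g, h⁆) (fun j h h' hh hh' => ?_) (fun j h _ hh => ?_)
    · rw [show ⁅g, h * h'⁆ = ⁅g, h⁆ * (h * ⁅g, h'⁆ * h⁻¹) by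
        simp only [commutatorElement_def]; group, cls_mul (gam_comm hg hh)
        (gam_conj (gam_comm hg hh') h), cls_conj (gam_comm hg hh')]
    · exact cls_zero (by have := gam_comm hg hh; rwa [← add_assoc] at this)
  choose F hF using h1
  obtain ⟨b, hb⟩ := ex_lift F (fun i g g' hg hg' => hom_ext (fun j h hh => by
      rw [AddMonoidHom.add_apply, hF _ _ _ j h hh, hF _ _ _ j h hh, hF _ _ _ j h hh,
        show ⁅g * g', h⁆ = (g * ⁅g', h⁆ * g⁻¹) * ⁅g, h⁆ by simp only [commutatorElement_def]; group,
        cls_mul (gam_conj (gam_comm hg' hh) g) (gam_comm hg hh), cls_conj (gam_comm hg' hh),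
        add_comm]))
    (fun i g hg hg' => hom_ext (fun j h hh => by
      rw [hF _ _ _ j h hh, AddMonoidHom.zero_apply]
      have := gam_comm hg' hh
      rw [show i + 1 + j + 1 = i + j + 1 + 1 by ring] at this
      exact cls_zero this))
  exact ⟨b, fun i j g h hg hh => by rw [hb i g hg, hF _ _ _ j h hh]⟩

/-- the bracket -/
noncomputable def br : GrL G →+ GrL G →+ GrL G := ex_br.choose

theorem br_cls {i j : ℕ} {g h : G} (hg : g ∈ gam G i) (hh : h ∈ gam G j) :
    br (cls i g) (cls j h) = cls (i + j + 1) ⁅g, h⁆ := ex_br.choose_spec i j g h hg hh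

theorem br_skew (x y : GrL G) : br x y = - br y x := by
  induction x using ind with
  | h0 => simp
  | h2 x x' h h' => rw [map_add, AddMonoidHom.add_apply, h, h', map_add, neg_add]
  | h1 i g hg =>
    induction y using ind with
    | h0 => simp
    | h2 y y' h h' => rw [map_add, h, h', map_add, AddMonoidHom.add_apply, neg_add]
    | h1 j h hh =>
      rw [br_cls hg hh, br_cls hh hg, ← cls_inv (gam_comm hh hg), commutatorElement_inv, add_comm j i]

theorem br_self (x : GrL G) : br x x = 0 := by
  induction x using ind with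
  | h0 => simp
  | h1 i g hg => rw [br_cls hg hg, commutatorElement_self, cls_one]
  | h2 x y h h' =>
    simp only [map_add, AddMonoidHom.add_apply, h, h', br_skew x y]
    abel

theorem br_jac (x y z : GrL G) : br (br x y) z + br (br y z) x + br (br z x) y = 0 := by
  induction x using ind with
  | h0 => simp
  | h2 x x' h h' =>
    simp only [map_add, AddMonoidHom.add_apply]
    linear_combination (norm := abel) h + h'
  | h1 i a ha =>
  induction y using ind with
  | h0 => simp
  | h2 x x' h h' =>
    simp only [map_add, AddMonoidHom.add_apply]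
    linear_combination (norm := abel) h + h'
  | h1 j b hb =>
  induction z using ind with
  | h0 => simp
  | h2 x x' h h' =>
    simp only [map_add, AddMonoidHom.add_apply]
    linear_combination (norm := abel) h + h'
  | h1 k c hc =>
    have m1 := gam_comm (gam_comm ha hb) (gam_conj hc b)
    have m2 := gam_comm (gam_comm hb hc) (gam_conj ha c)
    have m3 := gam_comm (gam_comm hc ha) (gam_conj hb a)
    rw [br_cls ha hb, br_cls hb hc, br_cls hc ha]
    nth_rewrite 1 [← cls_conj hc b, ← cls_conj ha c, ← cls_conj hb a]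
    rw [br_cls (gam_comm ha hb) (gam_conj hc b), br_cls (gam_comm hb hc) (gam_conj ha c),
      br_cls (gam_comm hc ha) (gam_conj hb a)]
    rw [show j + k + 1 + i + 1 = i + j + 1 + k + 1 by ring] at m2 ⊢
    rw [show k + i + 1 + j + 1 = i + j + 1 + k + 1 by ring] at m3 ⊢
    rw [← cls_mul m1 m2, ← cls_mul (mul_mem m1 m2) m3]
    convert cls_one (G := G) _
    simp only [commutatorElement_def]
    group

noncomputable instance : LieRing (GrL G) where
  bracket x y := br x y
  add_lie x y z := by
    change br (x + y) z = br x z + br y z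
    rw [map_add, AddMonoidHom.add_apply]
  lie_add x y z := map_add (br x) y z
  lie_self := br_self
  leibniz_lie x y z := by
    change br x (br y z) = br (br x y) z + br y (br x z)
    have := br_jac x y z
    rw [br_skew (br y z) x, br_skew (br z x) y, br_skew z x, map_neg] at this
    linear_combination (norm := abel) (-1 : ℤ) • this

theorem lie_cls {i j : ℕ} {g h : G} (hg : g ∈ gam G i) (hh : h ∈ gam G j) :
    ⁅cls i g, cls j h⁆ = cls (i + j + 1) ⁅g, h⁆ := br_cls hg hh

theorem faith {c : ℕ} {g : G} (hg : g ∈ gam G c) (h : cls c g = 0) : g ∈ gam G (c + 1) := by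
  classical
  have hc : ∀ x ∈ gam G c, (x : G ⧸ gam G (c + 1)) ∈ Subgroup.center (G ⧸ gam G (c + 1)) := by
    intro x hx
    rw [Subgroup.mem_center_iff]
    intro y
    obtain ⟨y, rfl⟩ := QuotientGroup.mk_surjective y
    rw [← QuotientGroup.mk_mul, ← QuotientGroup.mk_mul, QuotientGroup.eq]
    have := gam_comm (j := 0) (h := y⁻¹) (inv_mem hx) trivial
    convert this using 1
    simp only [commutatorElement_def]; group
  letI : CommGroup (Subgroup.center (G ⧸ gam G (c + 1))) :=
    { (inferInstance : Group (Subgroup.center (G ⧸ gam G (c + 1)))) with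
      mul_comm := fun a b => Subtype.ext (Subgroup.mem_center_iff.1 b.2 a.1) }
  obtain ⟨F, hF⟩ := ex_lift (G := G) (B := Additive (Subgroup.center (G ⧸ gam G (c + 1))))
    (fun i x hx => if h : i = c then Additive.ofMul ⟨x, hc x (h ▸ hx)⟩ else 0)
    (fun i x y hx hy => by
      split_ifs with h
      · rfl
      · exact (add_zero _).symm)
    (fun i x hx hx' => by
      split_ifs with h
      · subst h
        exact congrArg Additive.ofMul (Subtype.ext ((QuotientGroup.eq_one_iff x).2 hx'))
      · rfl)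
  have := hF c g hg
  rw [h, map_zero, dif_pos rfl] at this
  exact (QuotientGroup.eq_one_iff g).1 (congrArg (fun t => (Additive.toMul t).1) this).symm

theorem cls_pow {i : ℕ} {g : G} (hg : g ∈ gam G i) (n : ℕ) : cls i (g ^ n) = n • cls i g := by
  induction n with
  | zero => rw [pow_zero, cls_one, zero_smul]
  | succ n ih => rw [pow_succ, cls_mul (pow_mem hg n) hg, ih, succ_nsmul]

theorem lcs_mem {A : Type*} [CommRing A] (c : ℕ) : ∀ g ∈ gam G c, (1 : A) ⊗ₜ[ℤ] cls c g ∈
    (fun I : LieIdeal A (A ⊗[ℤ] GrL G) => ⁅(⊤ : LieIdeal A (A ⊗[ℤ] GrL G)), I⁆)^[c] ⊤ := by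
  induction c with
  | zero => intro g _; trivial
  | succ c ih =>
    intro g hg
    rw [Function.iterate_succ_apply']
    have hg' := (Subgroup.mem_lowerCentralSeries_succ_iff _ c g).1 hg
    induction hg' using Subgroup.closure_induction with
    | mem x hx =>
      obtain ⟨a, ha, b, -, rfl⟩ := hx
      have := lie_cls (j := 0) (h := b) ha trivial
      rw [add_zero] at this
      rw [← this, ← one_mul (1 : A), ← LieAlgebra.ExtendScalars.bracket_tmul, ← lie_skew]
      exact neg_mem (LieSubmodule.lie_mem_lie trivial (ih a ha))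
    | one => rw [cls_one, TensorProduct.tmul_zero]; exact zero_mem _
    | mul x y hx hy h1 h2 =>
      rw [cls_mul hx hy, TensorProduct.tmul_add]; exact add_mem (h1 hx) (h2 hy)
    | inv x hx h1 =>
      rw [cls_inv hx, TensorProduct.tmul_neg]; exact neg_mem (h1 hx)

theorem grading [Finite G] {p : ℕ} [Fact p.Prime] (α : MulAut G) (hα : α ^ p = 1)
    (hfpf : ∀ g : G, α g = g → g = 1) (he : (Nat.card G).Coprime p) :
    Nonempty (ZGr p (AdjoinRoot (Polynomial.cyclotomic p ℤ))
      (AdjoinRoot (Polynomial.cyclotomic p ℤ) ⊗[ℤ] GrL G)) := by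
  have hm : ∀ (β : MulAut G) i g, g ∈ gam G i → β g ∈ gam G i := fun β i g hg =>
    (Subgroup.characteristic_iff_map_le.1 inferInstance β) (Subgroup.mem_map_of_mem _ hg)
  obtain ⟨F, hF⟩ := ex_lift (fun i g (_ : g ∈ gam G i) => cls i (α g))
    (fun i g h hg hh => by rw [map_mul, cls_mul (hm α i g hg) (hm α i h hh)])
    (fun i g _ hg => cls_zero (hm α _ g hg))
  have hp : ∀ n i g, g ∈ gam G i → (F.toIntLinearMap ^ n) (cls i g) = cls i ((α ^ n) g) := by
    intro n i g hg
    induction n with
    | zero => simp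
    | succ n ih =>
      rw [pow_succ', Module.End.mul_apply, ih, pow_succ', MulAut.mul_apply]
      exact hF i _ (hm _ i g hg)
  have hit : ∀ n g, (⇑α)^[n] g = (α ^ n) g := by
    intro n g
    induction n with
    | zero => rfl
    | succ n ih => rw [Function.iterate_succ_apply', ih, pow_succ', MulAut.mul_apply]
  refine kk_ext F.toIntLinearMap (fun x y => ?_) (LinearMap.ext fun x => ?_)
    (LinearMap.ext fun x => ?_) (Nat.card G) he (fun x => ?_)
  · change F _ = ⁅F x, F y⁆
    induction x using ind with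
    | h0 => simp
    | h2 x x' h h' => simp only [add_lie, map_add, h, h']
    | h1 i g hg =>
      induction y using ind with
      | h0 => simp
      | h2 y y' h h' => simp only [lie_add, map_add, h, h']
      | h1 j h hh =>
        rw [lie_cls hg hh, hF _ _ (gam_comm hg hh), hF _ _ hg, hF _ _ hh,
          lie_cls (hm α i g hg) (hm α j h hh), map_commutatorElement]
  · induction x using ind with
    | h0 => simp
    | h2 x x' h h' => simp only [map_add, h, h']
    | h1 i g hg => rw [hp p i g hg, hα]; rfl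
  · induction x using ind with
    | h0 => simp
    | h2 x x' h h' => simp only [map_add, h, h']
    | h1 i g hg =>
      have h1 : ∀ n, ∑ j ∈ Finset.range n, cls i ((α ^ j) g) =
          cls i ((List.range n).map (fun k => (⇑α)^[k] g)).prod ∧
          ((List.range n).map (fun k => (⇑α)^[k] g)).prod ∈ gam G i := by
        intro n
        induction n with
        | zero => exact ⟨by simp [cls_one], by simp⟩
        | succ n ih =>
          have e := hit n g
          rw [Finset.sum_range_succ, List.range_succ, List.map_append, List.prod_append, ih.1]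
          simp only [List.map_cons, List.map_nil, List.prod_cons, List.prod_nil, mul_one, e]
          exact ⟨(cls_mul ih.2 (hm _ i g hg)).symm, mul_mem ih.2 (hm _ i g hg)⟩
      have h2 := MonoidHom.FixedPointFree.prod_pow_eq_one (φ := α) hfpf (n := p)
        (funext fun x => by rw [hit, hα]; rfl) g
      rw [LinearMap.sum_apply, LinearMap.zero_apply]
      simp only [hp _ i g hg]
      rw [(h1 p).1, h2, cls_one]
  · induction x using ind with
    | h0 => simp
    | h2 x x' h h' => rw [smul_add, h, h', add_zero]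
    | h1 i g hg => rw [← cls_pow hg, pow_card_eq_one', cls_one]

end GrL

theorem gam_bot [Group.IsNilpotent G] {c : ℕ} (h : gam G c ≤ gam G (c + 1)) : gam G c = ⊥ := by
  obtain ⟨n, hn⟩ := Subgroup.nilpotent_iff_lowerCentralSeries.1 (inferInstance : Group.IsNilpotent G)
  have : ∀ k, gam G c ≤ gam G (c + k) := by
    intro k
    induction k with
    | zero => exact le_rfl
    | succ k ih => exact h.trans (Subgroup.commutator_mono ih le_rfl)
  rw [eq_bot_iff, ← hn]
  exact (this n).trans (Subgroup.lowerCentralSeries_antitone _ (Nat.le_add_left n c))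

end H2
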