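import Cfsg.Agent.H2.KK2

set_option autoImplicit false

namespace H2

open scoped TensorProduct

/-- the class bound -/
def kkH (p : ℕ) : ℕ := ∑ i ∈ Finset.range (2 ^ (p - 1) - 1), (p - 1) ^ i

theorem it_map {R L L' : Type*} [CommRing R] [LieRing L] [LieAlgebra R L] [LieRing L']
    [LieAlgebra R L'] (s : L →ₗ[R] L') (hs : ∀ x y, s ⁅x, y⁆ = ⁅s x, s y⁆) (m : ℕ) :
    ∀ x ∈ (fun I : LieIdeal R L => ⁅(⊤ : LieIdeal R L), I⁆)^[m] ⊤,
      s x ∈ (fun I : LieIdeal R L' => ⁅(⊤ : LieIdeal R L'), I⁆)^[m] ⊤ := by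
  induction m with
  | zero => intro x _; trivial
  | succ m ih =>
    intro x hx
    rw [Function.iterate_succ_apply'] at hx ⊢
    have hx' : x ∈ LieSubmodule.toSubmodule (⁅(⊤ : LieIdeal R L),
      (fun I : LieIdeal R L => ⁅(⊤ : LieIdeal R L), I⁆)^[m] ⊤⁆ : LieIdeal R L) := hx
    rw [LieSubmodule.lieIdeal_oper_eq_linear_span'] at hx'
    refine (Submodule.span_le (p := (LieSubmodule.toSubmodule (⁅(⊤ : LieIdeal R L'),
      (fun I : LieIdeal R L' => ⁅(⊤ : LieIdeal R L'), I⁆)^[m] ⊤⁆ : LieIdeal R L')).comap s)).2 ?_ hx'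
    rintro _ ⟨a, -, b, hb, rfl⟩
    rw [SetLike.mem_coe, Submodule.mem_comap, hs]
    exact LieSubmodule.lie_mem_lie trivial (ih b hb)

theorem rel_nil {p : ℕ} [Fact p.Prime] {R M : Type*} [CommRing R] [LieRing M] [LieAlgebra R M]
    (π : ZMod p → M →ₗ[R] M) (hsum : ∀ x, ∑ i, π i x = x) (hid : ∀ i x, π i (π i x) = π i x)
    (hbr : ∀ i k x y, π (i + k) ⁅π i x, y⁆ = ⁅π i x, π k y⁆) (c : R) (hz : ∀ x, c • π 0 x = 0) :
    ∀ x ∈ (fun I : LieIdeal R M => ⁅(⊤ : LieIdeal R M), I⁆)^[kkH p] ⊤, c • x = 0 := by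
  let I : LieIdeal R M :=
    { carrier := {x | c • x = 0}
      add_mem' := fun {a b} ha hb => by
        simp only [Set.mem_setOf_eq] at ha hb ⊢; rw [smul_add, ha, hb, add_zero]
      zero_mem' := smul_zero c
      smul_mem' := fun r x hx => by
        simp only [Set.mem_setOf_eq] at hx ⊢; rw [smul_comm, hx, smul_zero]
      lie_mem := fun {x m} hm => by
        simp only [Set.mem_setOf_eq] at hm ⊢; rw [← lie_smul, hm, lie_zero] }
  have hI : ∀ i, I.toSubmodule ≤ I.toSubmodule.comap (π i) := fun i x hx => by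
    change c • π i x = 0
    rw [← map_smul, show c • x = 0 from hx, map_zero]
  let s : M →ₗ[R] M ⧸ I := I.toSubmodule.mkQ
  have hs : Function.Surjective s := Submodule.mkQ_surjective _
  have hb : ∀ x y, s ⁅x, y⁆ = ⁅s x, s y⁆ := fun x y => rfl
  let π' : ZMod p → (M ⧸ I) →ₗ[R] (M ⧸ I) := fun i => Submodule.mapQ _ _ (π i) (hI i)
  have hπ : ∀ i x, π' i (s x) = s (π i x) := fun i x => rfl
  let g : ZGr p R (M ⧸ I) :=
    { π := π'
      sum := fun x => by
        obtain ⟨x, rfl⟩ := hs x
        simp only [hπ, ← map_sum, hsum]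
      idem := fun i x => by
        obtain ⟨x, rfl⟩ := hs x
        rw [hπ, hπ, hid]
      br := fun i k x y h => by
        obtain ⟨x, rfl⟩ := hs x
        obtain ⟨y, rfl⟩ := hs y
        rw [← h, hπ, ← hb, hπ, hbr, hb, hπ]
      zero := fun x => by
        obtain ⟨x, rfl⟩ := hs x
        rw [hπ]
        exact (Submodule.Quotient.mk_eq_zero _).2 (hz x) }
  have ht : g.H ⊤ := fun _ _ _ => trivial
  intro x hx
  have h1 := (g.kk_nil _ ⊤ ht (g.kreknin ht)).le (it_map s hb _ x hx)
  exact (Submodule.Quotient.mk_eq_zero I.toSubmodule).1 h1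

/-- functions with the convolution bracket -/
def Conv (n : ℕ) (L : Type*) := ZMod n → L

section
variable {n : ℕ} [NeZero n] {R L : Type*} [CommRing R] [LieRing L] [LieAlgebra R L]

instance : AddCommGroup (Conv n L) := inferInstanceAs (AddCommGroup (ZMod n → L))
instance : Module R (Conv n L) := inferInstanceAs (Module R (ZMod n → L))

instance : LieRing (Conv n L) where
  bracket x y := fun k => ∑ i, ⁅x i, y (k - i)⁆
  add_lie x y z := funext fun k => by
    change ∑ i, ⁅x i + y i, z (k - i)⁆ = ∑ i, ⁅x i, z (k - i)⁆ + ∑ i, ⁅y i, z (k - i)⁆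
    simp only [add_lie, Finset.sum_add_distrib]
  lie_add x y z := funext fun k => by
    change ∑ i, ⁅x i, y (k - i) + z (k - i)⁆ = ∑ i, ⁅x i, y (k - i)⁆ + ∑ i, ⁅x i, z (k - i)⁆
    simp only [lie_add, Finset.sum_add_distrib]
  lie_self x := funext fun k => by
    change ∑ i, ⁅x i, x (k - i)⁆ = 0
    refine Finset.sum_ninvolution (fun i => k - i) (fun i => ?_) (fun i h e => h ?_)
      (fun i => Finset.mem_univ _) (fun i => sub_sub_cancel _ _)
    · rw [sub_sub_cancel, ← lie_skew (x i), neg_add_cancel]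
    · rw [show k - i = i from e, lie_self]
  leibniz_lie x y z := funext fun k => by
    change ∑ i, ⁅x i, ∑ j, ⁅y j, z (k - i - j)⁆⁆ = ∑ m, ⁅∑ i, ⁅x i, y (m - i)⁆, z (k - m)⁆ +
      ∑ j, ⁅y j, ∑ i, ⁅x i, z (k - j - i)⁆⁆
    simp only [lie_sum, sum_lie]
    rw [Finset.sum_comm (f := fun m i => ⁅⁅x i, y (m - i)⁆, z (k - m)⁆),
      Finset.sum_comm (f := fun j i => ⁅y j, ⁅x i, z (k - j - i)⁆⁆), ← Finset.sum_add_distrib]
    refine Finset.sum_congr rfl (fun i _ => ?_)
    simp only [leibniz_lie (x i), Finset.sum_add_distrib]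
    congr 1
    · refine Fintype.sum_equiv (Equiv.addLeft i) _ _ (fun j => ?_)
      simp only [Equiv.coe_addLeft, add_sub_cancel_left, sub_sub]
    · simp only [sub_right_comm]

theorem conv_lie (x y : Conv n L) (k : ZMod n) : ⁅x, y⁆ k = ∑ i, ⁅x i, y (k - i)⁆ := rfl

instance : LieAlgebra R (Conv n L) where
  lie_smul t x y := funext fun k => by
    change ∑ i, ⁅x i, t • y (k - i)⁆ = t • ∑ i, ⁅x i, y (k - i)⁆
    simp only [lie_smul, Finset.smul_sum]

end

theorem eig_nil {p : ℕ} [Fact p.Prime] {R L : Type*} [CommRing R] [LieRing L] [LieAlgebra R L]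
    (w : R) (hw' : ∑ i ∈ Finset.range p, w ^ i = 0) (f : Module.End R L)
    (hbr : ∀ x y, f ⁅x, y⁆ = ⁅f x, f y⁆) (hp : f ^ p = 1) (c : R) (hc : ∀ x, f x = x → c • x = 0) :
    ∀ z ∈ (fun I : LieIdeal R L => ⁅(⊤ : LieIdeal R L), I⁆)^[kkH p] ⊤,
      (c * p ^ (kkH p + 1)) • z = 0 := by
  classical
  have hw : w ^ p = 1 := by
    have := mul_geom_sum w p
    rw [hw', mul_zero] at this
    exact sub_eq_zero.1 this.symm
  let e : AddChar (ZMod p) R := AddChar.zmodChar p hw
  have hsum : ∑ i : ZMod p, e i = 0 := by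
    rw [← hw']
    refine Finset.sum_nbij (fun i => i.val) (fun i _ => Finset.mem_range.2 (ZMod.val_lt i))
      (fun i _ j _ h => ZMod.val_injective p h) (fun j hj => ⟨(j : ZMod p), by simp,
        ZMod.val_cast_of_lt (by simpa using hj)⟩) (fun i _ => AddChar.zmodChar_apply hw i)
  have hneg : ∀ i, e (-i) * e i = 1 := fun i => by
    rw [← AddChar.map_add_eq_mul, neg_add_cancel, AddChar.map_zero_eq_one]
  have hep : ∀ i, e i ^ p = 1 := fun i => by
    rw [← AddChar.map_nsmul_eq_pow, nsmul_eq_mul, ZMod.natCast_self, zero_mul,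
      AddChar.map_zero_eq_one]
  let t : ZMod p → L →ₗ[R] L := fun i => ∑ j ∈ Finset.range p, (e (-i) • f) ^ j
  have eig : ∀ i x, f (t i x) = e i • t i x := by
    intro i x
    have h1 := mul_geom_sum (e (-i) • f) p
    rw [smul_pow, hep, hp, one_smul, sub_self, sub_mul, one_mul, sub_eq_zero] at h1
    have h2 : e (-i) • f (t i x) = t i x := LinearMap.congr_fun h1 x
    conv_rhs => rw [← h2]
    rw [smul_smul, mul_comm, hneg, one_smul]
  have tsum : ∀ x, ∑ i, t i x = (p : R) • x := by
    intro x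
    simp only [t, smul_pow, LinearMap.smul_apply, LinearMap.sum_apply]
    rw [Finset.sum_comm]
    simp only [← Finset.sum_smul]
    rw [Finset.sum_eq_single_of_mem 0 (Finset.mem_range.2 (Fact.out : p.Prime).pos)]
    · simp only [pow_zero, Finset.sum_const, Finset.card_univ, ZMod.card, nsmul_eq_mul, mul_one,
        Module.End.one_apply]
    · intro j hj hj0
      have hj1 : (j : ZMod p) ≠ 0 := by
        rw [Ne, ZMod.natCast_eq_zero_iff]
        exact Nat.not_dvd_of_pos_of_lt (Nat.pos_of_ne_zero hj0) (Finset.mem_range.1 hj)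
      have : ∑ i : ZMod p, e (-i) ^ j = 0 := by
        rw [← hsum]
        refine Fintype.sum_equiv ((Equiv.neg _).trans (Equiv.mulLeft₀ (j : ZMod p) hj1)) _ _
          (fun i => ?_)
        rw [← AddChar.map_nsmul_eq_pow, nsmul_eq_mul]
        rfl
      rw [this, zero_smul]
  let M : LieSubalgebra R (Conv p L) :=
    { carrier := {x | ∀ i, f (x i) = e i • x i}
      add_mem' := fun {a b} ha hb i => by
        change f (a i + b i) = e i • (a i + b i)
        rw [map_add, ha, hb, smul_add]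
      zero_mem' := fun i => by
        change f 0 = e i • (0 : L)
        simp
      smul_mem' := fun r x hx i => by
        change f (r • x i) = e i • r • x i
        rw [map_smul, hx, smul_comm]
      lie_mem' := fun {x y} hx hy k => by
        rw [conv_lie, map_sum, Finset.smul_sum]
        refine Finset.sum_congr rfl (fun i _ => ?_)
        rw [hbr, hx, hy, smul_lie, lie_smul, smul_smul, ← AddChar.map_add_eq_mul, add_sub_cancel] }
  let π : ZMod p → M →ₗ[R] M := fun i =>
    { toFun := fun x => ⟨fun j => if j = i then x.1 j else 0, fun j => by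
        beta_reduce
        split_ifs
        · exact x.2 j
        · simp⟩
      map_add' := fun x y => Subtype.ext (funext fun j => by
        change (if j = i then x.1 j + y.1 j else 0) =
          (if j = i then x.1 j else 0) + (if j = i then y.1 j else 0)
        split_ifs <;> simp)
      map_smul' := fun r x => Subtype.ext (funext fun j => by
        change (if j = i then r • x.1 j else 0) = r • (if j = i then x.1 j else 0)
        split_ifs <;> simp) }
  let ev : ZMod p → M →ₗ[R] L := fun j =>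
    { toFun := fun x => x.1 j, map_add' := fun _ _ => rfl, map_smul' := fun _ _ => rfl }
  have hπ : ∀ i (x : M) j, ev j (π i x) = if j = i then ev j x else 0 := fun i x j => rfl
  have hlie : ∀ (x y : M) k, ev k ⁅x, y⁆ = ∑ i, ⁅ev i x, ev (k - i) y⁆ := fun _ _ _ => rfl
  have hext : ∀ x y : M, (∀ j, ev j x = ev j y) → x = y := fun x y h => Subtype.ext (funext h)
  have hev : ∀ j (x : M), f (ev j x) = e j • ev j x := fun j x => x.2 j
  have hil : ∀ (P : Prop) [Decidable P] (a b : L), ⁅(if P then a else 0), b⁆ = if P then ⁅a, b⁆ else 0 := by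
    intro P _ a b; split_ifs <;> simp
  have main := rel_nil π (fun x => hext _ _ fun j => by
      simp only [map_sum, hπ, Finset.sum_ite_eq, Finset.mem_univ, if_true])
    (fun i x => hext _ _ fun j => by
      rw [hπ, hπ]; split_ifs <;> rfl)
    (fun i k x y => hext _ _ fun m => by
      simp only [hπ, hlie, hil, Finset.sum_ite_eq', Finset.mem_univ, if_true,
        sub_eq_iff_eq_add']
      split_ifs with h
      · rw [h, add_sub_cancel_left]
      · simp) c
    (fun x => hext _ _ fun j => by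
      rw [map_smul, hπ, map_zero]
      split_ifs with h
      · refine hc _ ?_
        rw [hev, h, AddChar.map_zero_eq_one, one_smul]
      · simp)
  let σ : M →ₗ[R] L := ∑ j, ev j
  have hσ : ∀ x : M, σ x = ∑ j, ev j x := fun x => by simp only [σ, LinearMap.sum_apply]
  have hσb : ∀ x y : M, σ ⁅x, y⁆ = ⁅σ x, σ y⁆ := by
    intro x y
    simp only [hσ, hlie]
    rw [Finset.sum_comm, sum_lie]
    refine Finset.sum_congr rfl (fun i _ => ?_)
    rw [lie_sum]
    exact Fintype.sum_equiv (Equiv.subRight i) _ _ (fun j => rfl)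
  have hτ : ∀ z, ∃ x : M, σ x = (p : R) • z := fun z => ⟨⟨fun i => t i z, fun i => eig i z⟩, by
    rw [hσ]; exact tsum z⟩
  have key : ∀ m, ∀ z ∈ (fun I : LieIdeal R L => ⁅(⊤ : LieIdeal R L), I⁆)^[m] ⊤,
      ((p : R) ^ (m + 1)) • z ∈ (LieSubmodule.toSubmodule
        ((fun I : LieIdeal R M => ⁅(⊤ : LieIdeal R M), I⁆)^[m] ⊤)).map σ := by
    intro m
    induction m with
    | zero =>
      intro z _
      obtain ⟨x, hx⟩ := hτ z
      exact ⟨x, trivial, by rw [hx, zero_add, pow_one]⟩
    | succ m ih =>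
      intro z hz
      rw [Function.iterate_succ_apply'] at hz ⊢
      have hz' : z ∈ LieSubmodule.toSubmodule (⁅(⊤ : LieIdeal R L),
        (fun I : LieIdeal R L => ⁅(⊤ : LieIdeal R L), I⁆)^[m] ⊤⁆ : LieIdeal R L) := hz
      rw [LieSubmodule.lieIdeal_oper_eq_linear_span'] at hz'
      refine (Submodule.span_le (p := (Submodule.map σ _).comap
        (LinearMap.lsmul R L ((p : R) ^ (m + 1 + 1))))).2 ?_ hz'
      rintro _ ⟨a, -, b, hb, rfl⟩
      obtain ⟨x, hx⟩ := hτ a
      obtain ⟨y, hy, e⟩ := ih b hb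
      refine ⟨⁅x, y⁆, LieSubmodule.lie_mem_lie trivial hy, ?_⟩
      rw [hσb, hx, e, smul_lie, lie_smul, smul_smul, ← pow_succ']
      rfl
  intro z hz
  obtain ⟨x, hx, e⟩ := key _ z hz
  rw [mul_smul, ← e, ← map_smul, main x hx, map_zero]

theorem ext_nil {p : ℕ} [Fact p.Prime] {A L ι : Type*} [CommRing A] [LieRing L] [Fintype ι]
    (b : Module.Basis ι ℤ A) (w : A)
    (h0 : ∑ i ∈ Finset.range p, w ^ i = 0) (f : Module.End ℤ L)
    (hbr : ∀ x y, f ⁅x, y⁆ = ⁅f x, f y⁆) (hp : f ^ p = 1) (c : ℕ) (hc : ∀ x, f x = x → c • x = 0) :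
    ∀ z ∈ (fun I : LieIdeal A (A ⊗[ℤ] L) => ⁅(⊤ : LieIdeal A (A ⊗[ℤ] L)), I⁆)^[kkH p] ⊤,
      (c * p ^ (kkH p + 1)) • z = 0 := by
  have hf : ∀ s x, Module.End.baseChangeHom ℤ A L f (s ⊗ₜ x) = s ⊗ₜ f x := fun s x => rfl
  let co : ι → A ⊗[ℤ] L →ₗ[ℤ] L := fun k =>
    (TensorProduct.lid ℤ L).toLinearMap ∘ₗ LinearMap.rTensor L (b.coord k)
  have hco : ∀ k s x, co k (s ⊗ₜ x) = b.coord k s • x := fun k s x => rfl
  have h1 : ∀ z, z = ∑ k, b k ⊗ₜ[ℤ] co k z := by
    intro z
    induction z using TensorProduct.induction_on with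
    | zero => simp
    | add x y h h' =>
      simp only [map_add, TensorProduct.tmul_add, Finset.sum_add_distrib, ← h, ← h']
    | tmul s x =>
      simp only [hco, ← TensorProduct.smul_tmul, ← TensorProduct.sum_tmul, Module.Basis.coord_apply,
        Module.Basis.sum_repr]
  have h2 : ∀ k z, co k (Module.End.baseChangeHom ℤ A L f z) = f (co k z) := by
    intro k z
    induction z using TensorProduct.induction_on with
    | zero => simp
    | add x y h h' => simp only [map_add, h, h']
    | tmul s x => rw [hf, hco, hco, map_smul]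
  intro z hz
  have := eig_nil w h0 (Module.End.baseChangeHom ℤ A L f) (fun x y => ?_)
    (by rw [← map_pow, hp, map_one]) (c : A) (fun x hx => ?_) z hz
  · rw [← Nat.cast_smul_eq_nsmul A]
    push_cast
    exact this
  · induction x using TensorProduct.induction_on with
    | zero => rw [zero_lie, map_zero, zero_lie]
    | add x x' h h' => rw [add_lie, map_add, map_add, add_lie, h, h']
    | tmul s x =>
      induction y using TensorProduct.induction_on with
      | zero => rw [lie_zero, map_zero, lie_zero]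
      | add y y' h h' => rw [lie_add, map_add, map_add, lie_add, h, h']
      | tmul t y => simp only [LieAlgebra.ExtendScalars.bracket_tmul, hf, hbr]
  · rw [Nat.cast_smul_eq_nsmul, h1 x, Finset.smul_sum]
    refine Finset.sum_eq_zero (fun k _ => ?_)
    rw [← TensorProduct.tmul_smul, hc _ (by rw [← h2, hx]), TensorProduct.tmul_zero]

end H2
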