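import Cfsg.Agent.H2.KK3
import Cfsg.Agent.H2.KK4
import Cfsg.Agent.H1.Fitting

set_option autoImplicit false

namespace H2

open scoped commutatorElement TensorProduct

variable {G : Type*} [Group G] {p n : ℕ}

/-- automorphism of order dividing `p` with few fixed points -/
def Bd (p n : ℕ) {G : Type*} [Group G] (α : MulAut G) : Prop :=
  α ^ p = 1 ∧ Nat.card {g : G // α g = g} ≤ p ^ n

theorem bd_count [Finite G] (α : MulAut G) (T : Set G) :
    {x | x⁻¹ * α x ∈ T}.ncard ≤ Nat.card {g : G // α g = g} * T.ncard := by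
  classical
  haveI := Fintype.ofFinite G
  rw [Set.ncard_eq_toFinset_card', Set.ncard_eq_toFinset_card', Nat.card_eq_fintype_card,
    Fintype.card_subtype]
  refine Finset.card_le_mul_card_image_of_maps_to (f := fun x => x⁻¹ * α x) (by simp) _
    (fun b _ => ?_)
  by_cases h : ∃ y, y⁻¹ * α y = b
  · obtain ⟨y, hy⟩ := h
    refine Finset.card_le_card_of_injOn (fun x => x * y⁻¹) (fun x hx => ?_)
      (fun a _ b _ h => mul_right_cancel h)
    have h1 : x⁻¹ * α x = y⁻¹ * α y := by rw [hy]; exact (Finset.mem_filter.1 hx).2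
    simp only [Finset.coe_filter, Finset.mem_univ, true_and, Set.mem_setOf_eq, map_mul, map_inv]
    rw [show α x = x * (y⁻¹ * α y) by rw [← h1]; group]
    group
  · rw [Finset.filter_eq_empty_iff.2 (fun x _ e => h ⟨x, e⟩)]
    simp

theorem Bd.sub [Finite G] {α : MulAut G} (h : Bd p n α) (K : Subgroup G) [K.Characteristic] :
    Bd p n (MulAut.characteristic K α) := by
  refine ⟨by rw [← map_pow, h.1, map_one], le_trans (Nat.card_le_card_of_injective
    (fun x => (⟨x.1.1, congrArg Subtype.val x.2⟩ : {g : G // α g = g})) (fun x y e => ?_)) h.2⟩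
  exact Subtype.ext (Subtype.ext (congrArg (fun z : {g : G // α g = g} => z.1) e))

theorem Bd.quot [Finite G] {α : MulAut G} (h : Bd p n α) (N : Subgroup G) [N.Characteristic] :
    ∃ β : MulAut (G ⧸ N), (∀ x : G, β x = (α x : G)) ∧ Bd p n β := by
  let β : MulAut (G ⧸ N) := QuotientGroup.congr N N α
    (Subgroup.characteristic_iff_map_eq.1 inferInstance α)
  have hβ : ∀ x : G, β x = (α x : G) := fun x => rfl
  refine ⟨β, hβ, ?_, ?_⟩
  · have : ∀ k, ∀ x : G, (β ^ k) x = ((α ^ k) x : G) := by
      intro k x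
      induction k with
      | zero => rfl
      | succ k ih => rw [pow_succ', pow_succ', MulAut.mul_apply, MulAut.mul_apply, ih, hβ]
    ext x
    obtain ⟨x, rfl⟩ := QuotientGroup.mk_surjective x
    rw [this, h.1]; rfl
  · have h1 := bd_count α N
    have h2 := QuotientGroup.card_preimage_mk N {g | β g = g}
    have h3 : QuotientGroup.mk ⁻¹' {g | β g = g} = {x : G | x⁻¹ * α x ∈ (N : Set G)} := by
      ext x
      simp only [Set.mem_preimage, Set.mem_setOf_eq, hβ, SetLike.mem_coe]
      rw [eq_comm, QuotientGroup.eq]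
    rw [h3, Nat.card_coe_set_eq] at h2
    rw [h2, mul_comm] at h1
    exact (Nat.le_of_mul_le_mul_right h1 (Nat.card_pos (α := N))).trans h.2

theorem Bd.pow [Finite G] [Fact p.Prime] {α : MulAut G} (h : Bd p n α) (hG : IsPGroup p G) {g : G}
    (hg : α g = g) : g ^ p ^ n = 1 := by
  let F : Subgroup G := MonoidHom.eqLocus (α : G →* G) (MonoidHom.id G)
  obtain ⟨k, hk⟩ := (hG.to_subgroup F).exists_card_eq
  have h1 : p ^ k ≤ p ^ n := hk ▸ h.2
  have h2 : k ≤ n := (Nat.pow_le_pow_iff_right (Fact.out : p.Prime).one_lt).1 h1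
  have h3 : (⟨g, hg⟩ : F) ^ p ^ k = 1 := by rw [← hk]; exact pow_card_eq_one'
  obtain ⟨d, rfl⟩ := Nat.exists_eq_add_of_le h2
  rw [pow_add, pow_mul, show g ^ p ^ k = 1 from congrArg Subtype.val h3, one_pow]

namespace GrL

theorem gam_aut (β : MulAut G) {i : ℕ} {g : G} (hg : g ∈ gam G i) : β g ∈ gam G i :=
  (Subgroup.characteristic_iff_map_le.1 inferInstance β) (Subgroup.mem_map_of_mem _ hg)

theorem ex_aut (α : MulAut G) (hα : α ^ p = 1) : ∃ f : Module.End ℤ (GrL G),
    (∀ i g, g ∈ gam G i → f (cls i g) = cls i (α g)) ∧ (∀ x y, f ⁅x, y⁆ = ⁅f x, f y⁆) ∧ f ^ p = 1 := by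
  obtain ⟨F, hF⟩ := ex_lift (fun i g (_ : g ∈ gam G i) => cls i (α g))
    (fun i g h hg hh => by rw [map_mul, cls_mul (gam_aut α hg) (gam_aut α hh)])
    (fun i g _ hg => cls_zero (gam_aut α hg))
  have hp : ∀ n i g, g ∈ gam G i → (F.toIntLinearMap ^ n) (cls i g) = cls i ((α ^ n) g) := by
    intro n i g hg
    induction n with
    | zero => simp
    | succ n ih =>
      rw [pow_succ', Module.End.mul_apply, ih, pow_succ', MulAut.mul_apply]
      exact hF i _ (gam_aut _ hg)
  refine ⟨F.toIntLinearMap, hF, fun x y => ?_, LinearMap.ext fun x => ?_⟩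
  · change F _ = ⁅F x, F y⁆
    induction x using ind with
    | h0 => simp
    | h2 x x' h h' => simp only [add_lie, map_add, h, h']
    | h1 i g hg =>
      induction y using ind with
      | h0 => simp
      | h2 y y' h h' => simp only [lie_add, map_add, h, h']
      | h1 j h hh =>
        rw [lie_cls hg hh, hF _ _ (gam_comm hg hh), hF _ _ hg, hF _ _ hh,
          lie_cls (gam_aut α hg) (gam_aut α hh), map_commutatorElement]
  · induction x using ind with
    | h0 => simp
    | h2 x x' h h' => simp only [map_add, h, h']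
    | h1 i g hg => rw [hp p i g hg, hα]; rfl

theorem fix_kill [Finite G] [Fact p.Prime] {α : MulAut G} (h : Bd p n α) (hG : IsPGroup p G)
    (f : Module.End ℤ (GrL G)) (hf : ∀ i g, g ∈ gam G i → f (cls i g) = cls i (α g)) (x : GrL G)
    (hx : f x = x) : p ^ n • x = 0 := by
  classical
  have hP : ∀ i, ∃ P : GrL G →+ GrL G, ∀ j g, g ∈ gam G j →
      P (cls j g) = if j = i then cls j g else 0 := fun i =>
    ex_lift (fun j g _ => if j = i then cls j g else 0) (fun j g h hg hh => by
      split_ifs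
      · exact cls_mul hg hh
      · simp) (fun j g _ hg => by rw [cls_zero hg]; simp)
  choose P hP using hP
  haveI := hG.isNilpotent
  obtain ⟨N, hN⟩ := Subgroup.nilpotent_iff_lowerCentralSeries.1 (inferInstance : Group.IsNilpotent G)
  have h1 : ∀ y, ∑ i ∈ Finset.range N, P i y = y := by
    intro y
    induction y using ind with
    | h0 => simp
    | h2 x x' h h' => simp only [map_add, Finset.sum_add_distrib, h, h']
    | h1 j g hg =>
      simp only [hP _ j g hg, Finset.sum_ite_eq, Finset.mem_range]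
      split_ifs with hj
      · rfl
      · have : g ∈ gam G N := Subgroup.lowerCentralSeries_antitone _ (not_lt.1 hj) hg
        rw [gam, hN, Subgroup.mem_bot] at this
        rw [this, cls_one]
  have h2 : ∀ i y, ∃ g ∈ gam G i, P i y = cls i g := by
    intro i y
    induction y using ind with
    | h0 => exact ⟨1, one_mem _, by rw [map_zero, cls_one]⟩
    | h2 x x' h h' =>
      obtain ⟨a, ha, e⟩ := h
      obtain ⟨b, hb, e'⟩ := h'
      exact ⟨a * b, mul_mem ha hb, by rw [map_add, e, e', cls_mul ha hb]⟩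
    | h1 j g hg =>
      rw [hP _ j g hg]
      split_ifs with hj
      · subst hj; exact ⟨g, hg, rfl⟩
      · exact ⟨1, one_mem _, (cls_one _).symm⟩
  have h3 : ∀ i y, P i (f y) = f (P i y) := by
    intro i y
    induction y using ind with
    | h0 => simp
    | h2 x x' h h' => simp only [map_add, h, h']
    | h1 j g hg =>
      rw [hf j g hg, hP _ j g hg, hP _ j _ (gam_aut α hg)]
      split_ifs
      · rw [hf j g hg]
      · simp
  rw [← h1 x, Finset.smul_sum]
  refine Finset.sum_eq_zero (fun i _ => ?_)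
  obtain ⟨g, hg, e⟩ := h2 i x
  have h4 := h3 i x
  rw [hx, e, hf i g hg] at h4
  have h5 : g⁻¹ * α g ∈ gam G (i + 1) := faith (mul_mem (inv_mem hg) (gam_aut α hg)) (by
    rw [cls_mul (inv_mem hg) (gam_aut α hg), cls_inv hg, ← h4, neg_add_cancel])
  obtain ⟨β, hβ, hb⟩ := h.quot (gam G (i + 1))
  have h6 := hb.pow (hG.to_quotient _) (g := (g : G ⧸ gam G (i + 1))) (by
    rw [hβ, eq_comm, QuotientGroup.eq]; exact h5)
  rw [e, ← cls_pow hg]
  exact cls_zero ((QuotientGroup.eq_one_iff _).1 (by rw [QuotientGroup.mk_pow]; exact h6))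

theorem exp_kill [Finite G] [Fact p.Prime] {α : MulAut G} (h : Bd p n α) (hG : IsPGroup p G) :
    ∀ g ∈ gam G (kkH p), p ^ (n + (kkH p + 1)) • cls (kkH p) g = 0 := by
  intro g hg
  obtain ⟨f, hf, hbr, hp⟩ := ex_aut α h.1
  have h0 : ∑ i ∈ Finset.range p, AdjoinRoot.root (Polynomial.cyclotomic p ℤ) ^ i = 0 := by
    have := (congrArg (AdjoinRoot.mk (Polynomial.cyclotomic p ℤ))
      (Polynomial.cyclotomic_prime ℤ p)).symm.trans AdjoinRoot.mk_self
    simpa [map_sum] using this
  have := ext_nil (AdjoinRoot.powerBasis' (Polynomial.cyclotomic.monic p ℤ)).basis _ h0 f hbr hp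
    (p ^ n) (fix_kill h hG f hf) _ (lcs_mem _ g hg)
  refine kk_inj (p := p) _ ?_
  rw [TensorProduct.tmul_smul, pow_add]
  exact this

theorem delta [Finite G] [Fact p.Prime] {α : MulAut G} (h : Bd p n α) (c e : ℕ)
    (hc : ∀ g ∈ gam G c, p ^ e • cls c g = 0) :
    Nat.card (gam G c) ≤ (p ^ n) ^ (p * e) * Nat.card (gam G (c + 1)) := by
  obtain ⟨f, hf, -, hp⟩ := ex_aut α h.1
  have h1 : ∀ k, ∀ x ∈ gam G c, (fun x => x⁻¹ * α x)^[k] x ∈ gam G c ∧
      cls c ((fun x => x⁻¹ * α x)^[k] x) = ((f - 1) ^ k) (cls c x) := by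
    intro k x hx
    induction k with
    | zero => exact ⟨hx, rfl⟩
    | succ k ih =>
      rw [Function.iterate_succ_apply', pow_succ', Module.End.mul_apply, ← ih.2]
      refine ⟨mul_mem (inv_mem ih.1) (gam_aut α ih.1), ?_⟩
      rw [cls_mul (inv_mem ih.1) (gam_aut α ih.1), cls_inv ih.1, LinearMap.sub_apply, hf _ _ ih.1,
        Module.End.one_apply, neg_add_eq_sub]
  obtain ⟨r, hr⟩ := (Commute.one_right (f - 1)).exists_add_pow_prime_eq (Fact.out : p.Prime)
  rw [sub_add_cancel, hp, one_pow, mul_one] at hr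
  have h2 : (f - 1) ^ p = (-((f - 1) * r)) * (p : Module.End ℤ (GrL G)) := by
    rw [← Nat.cast_comm, mul_neg, ← mul_assoc, eq_neg_iff_add_eq_zero]
    have : (f - 1) ^ p + ↑p * (f - 1) * r = (f - 1) ^ p + 1 + ↑p * (f - 1) * r - 1 := by abel
    rw [this, ← hr, sub_self]
  have h3 : ∀ k, {x | (fun x => x⁻¹ * α x)^[k] x ∈ gam G (c + 1)}.ncard ≤
      (p ^ n) ^ k * Nat.card (gam G (c + 1)) := by
    intro k
    induction k with
    | zero => rw [pow_zero, one_mul]; exact le_rfl
    | succ k ih =>
      refine (bd_count α {x | (fun x => x⁻¹ * α x)^[k] x ∈ gam G (c + 1)}).trans ?_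
      rw [pow_succ', mul_assoc]
      exact Nat.mul_le_mul h.2 ih
  refine le_trans (Set.ncard_le_ncard (s := (gam G c : Set G)) (fun x hx => ?_)) (h3 _)
  refine faith (h1 _ x hx).1 ?_
  rw [(h1 _ x hx).2, pow_mul, h2, (Nat.commute_cast _ _).mul_pow, Module.End.mul_apply,
    ← Nat.cast_pow, Module.End.natCast_apply, hc x hx, map_zero]

end GrL

theorem comm_gam_le (m : ℕ) : ∀ U : Subgroup G, U.Normal →
    ⁅U, gam G m⁆ ≤ (fun X : Subgroup G => ⁅X, ⊤⁆)^[m + 1] U := by
  have hn : ∀ k, ∀ U : Subgroup G, U.Normal → ((fun X : Subgroup G => ⁅X, ⊤⁆)^[k] U).Normal := by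
    intro k U hU
    induction k with
    | zero => exact hU
    | succ k ih => rw [Function.iterate_succ_apply']; infer_instance
  induction m with
  | zero => intro U _; exact le_rfl
  | succ m ih =>
    intro U hU
    haveI := hn (m + 1 + 1) U hU
    rw [Subgroup.commutator_comm]
    refine H7.three_subgroups Subgroup.le_normalizer_of_normal Subgroup.le_normalizer_of_normal
      Subgroup.le_normalizer_of_normal ?_ ?_
    · rw [Subgroup.commutator_comm ⊤, Function.iterate_succ_apply]
      exact ih _ inferInstance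
    · rw [Function.iterate_succ_apply']
      exact Subgroup.commutator_mono (ih U hU) le_rfl

theorem it_card [Finite G] [Group.IsNilpotent G] (U : Subgroup G) (hU : U.Normal) (k : ℕ) :
    ((fun X : Subgroup G => ⁅X, ⊤⁆)^[k] U).Normal ∧ ((fun X : Subgroup G => ⁅X, ⊤⁆)^[k] U = ⊥ ∨
      2 ^ k * Nat.card ((fun X : Subgroup G => ⁅X, ⊤⁆)^[k] U) ≤ Nat.card U) := by
  induction k with
  | zero => exact ⟨hU, Or.inr (by simp)⟩
  | succ k ih =>
    rw [Function.iterate_succ_apply']
    obtain ⟨hn, ih⟩ := ih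
    generalize (fun X : Subgroup G => ⁅X, ⊤⁆)^[k] U = X at hn ih
    refine ⟨inferInstance, ?_⟩
    by_cases hX : X = ⊥
    · left; rw [hX, Subgroup.commutator_bot_left]
    right
    have hle : ⁅X, ⊤⁆ ≤ X := Subgroup.commutator_le_left X ⊤
    have hne : ¬ X ≤ ⁅X, ⊤⁆ := by
      intro h
      obtain ⟨N, hN⟩ := Subgroup.nilpotent_iff_lowerCentralSeries.1
        (inferInstance : Group.IsNilpotent G)
      have : ∀ j, X ≤ gam G j := by
        intro j
        induction j with
        | zero => exact le_top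
        | succ j ih => exact h.trans (Subgroup.commutator_mono ih le_rfl)
      exact hX (eq_bot_iff.2 (hN ▸ this N))
    obtain ⟨d, hd⟩ := Subgroup.card_dvd_of_le hle
    have h2 : 2 ≤ d := by
      rcases d with _ | _ | d
      · have := Nat.card_pos (α := X); omega
      · exact (hne (Subgroup.eq_of_le_of_card_ge hle (by omega)).ge).elim
      · omega
    refine le_trans ?_ (ih.resolve_left hX)
    rw [hd, pow_succ, mul_assoc, mul_comm 2]
    exact Nat.mul_le_mul_left _ (Nat.mul_le_mul_left _ h2)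

theorem der_le_gam (j : ℕ) : derivedSeries G j ≤ gam G (2 ^ j - 1) := by
  induction j with
  | zero => exact le_rfl
  | succ j ih =>
    have := Nat.one_le_two_pow (n := j)
    rw [show 2 ^ (j + 1) - 1 = (2 ^ j - 1) + (2 ^ j - 1) + 1 by rw [pow_succ]; omega]
    exact (Subgroup.commutator_mono ih ih).trans (H7.lcs_comm ⊤ _ _)

theorem pgrp_der [Finite G] [Fact p.Prime] {α : MulAut G} (h : Bd p n α) (hG : IsPGroup p G) :
    derivedSeries G ((p ^ n) ^ (p * (n + (kkH p + 1))) + (kkH p + 1)) = ⊥ := by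
  haveI := hG.isNilpotent
  generalize hB : (p ^ n) ^ (p * (n + (kkH p + 1))) = B
  have h1 := GrL.delta (h.sub (derivedSeries G B)) _ _
    (GrL.exp_kill (h.sub (derivedSeries G B)) (hG.to_subgroup _))
  have e : ∀ c, Nat.card (gam (derivedSeries G B) c) =
      Nat.card ((derivedSeries G B).lowerCentralSeries c) := fun c => by
    rw [← Subgroup.top_subtype_lowerCentralSeries,
      Subgroup.card_map_of_injective (Subgroup.subtype_injective _)]
  rw [hB, e, e] at h1
  have hU : ((derivedSeries G B).lowerCentralSeries (kkH p)).Normal := inferInstance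
  have h2 : (derivedSeries G B).lowerCentralSeries (kkH p + 1) ≤
      (fun X : Subgroup G => ⁅X, ⊤⁆)^[2 ^ B - 1 + 1] _ :=
    (Subgroup.commutator_mono le_rfl (der_le_gam B)).trans (comm_gam_le _ _ hU)
  have h3 : (derivedSeries G B).lowerCentralSeries (kkH p + 1) = ⊥ := by
    rcases (it_card _ hU (2 ^ B - 1 + 1)).2 with h4 | h4
    · exact eq_bot_iff.2 (h4 ▸ h2)
    · exfalso
      have h5 := (Nat.mul_le_mul_left _ (Subgroup.card_le_of_le h2)).trans (h4.trans h1)
      have h6 := Nat.le_of_mul_le_mul_right h5 Nat.card_pos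
      have h7 : B < 2 ^ B := Nat.lt_two_pow_self
      have h8 : 2 ^ B - 1 + 1 < 2 ^ (2 ^ B - 1 + 1) := Nat.lt_two_pow_self
      omega
  have h4 : ∀ k, derivedSeries G (B + k) ≤ (derivedSeries G B).lowerCentralSeries k := by
    intro k
    induction k with
    | zero => exact le_rfl
    | succ k ih => exact Subgroup.commutator_mono ih (derivedSeries_antitone G (Nat.le_add_right _ _))
  exact eq_bot_iff.2 (h3 ▸ h4 _)

theorem der_ext (N : Subgroup G) [N.Normal] {a b : ℕ} (h1 : derivedSeries (G ⧸ N) a = ⊥)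
    (h2 : derivedSeries N b = ⊥) : derivedSeries G (a + b) = ⊥ := by
  have h3 : ∀ k, derivedSeries G (a + k) ≤ (derivedSeries N k).map N.subtype := by
    intro k
    induction k with
    | zero =>
      have := map_derivedSeries_le_derivedSeries (QuotientGroup.mk' N) a
      rw [h1, le_bot_iff, Subgroup.map_eq_bot_iff, QuotientGroup.ker_mk'] at this
      rwa [derivedSeries_zero, ← MonoidHom.range_eq_map, Subgroup.range_subtype]
    | succ k ih =>
      rw [derivedSeries_succ, Subgroup.map_commutator]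
      exact Subgroup.commutator_mono ih ih
  have := h3 b
  rwa [h2, Subgroup.map_bot, le_bot_iff] at this

theorem der_card [Finite G] [Group.IsSolvable G] {M : ℕ} (h : Nat.card G ≤ M) :
    derivedSeries G M = ⊥ := by
  have : ∀ k, derivedSeries G k = ⊥ ∨ Nat.card (derivedSeries G k) + k ≤ Nat.card G := by
    intro k
    induction k with
    | zero => right; simp
    | succ k ih =>
      by_cases hb : derivedSeries G k = ⊥
      · left; rw [derivedSeries_succ, hb, Subgroup.commutator_bot_left]
      · right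
        have h1 := Group.IsSolvable.commutator_lt_of_ne_bot hb
        have h2 : Nat.card (derivedSeries G (k + 1)) < Nat.card (derivedSeries G k) :=
          lt_of_le_of_ne (Subgroup.card_le_of_le h1.le)
            (fun e => h1.ne (Subgroup.eq_of_le_of_card_ge h1.le e.ge))
        have := ih.resolve_left hb
        omega
  rcases this M with h1 | h1
  · exact h1
  · have := Nat.card_pos (α := derivedSeries G M); omega

theorem top_card [Finite G] [Group.IsSolvable G] [Fact p.Prime] {α : MulAut G} (h : Bd p n α)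
    (hF : frattini G = ⊥) (hV : IsPGroup p (Cfsg.fittingSubgroup G)) :
    Nat.card G ≤ (p ^ n) ^ (p * 1) * ((p ^ n) ^ (p * 1)).factorial := by
  haveI := hV.isNilpotent
  haveI := H1.fitting_characteristic (G := G)
  have h0 := (H1.map_frattini_le_of_normal (Cfsg.fittingSubgroup G)).trans hF.le
  have h1 := GrL.delta (h.sub (Cfsg.fittingSubgroup G)) 0 1 (fun g hg => by
    have : g ^ p = 1 := Subtype.ext (h0 (H1.pow_mem_map_frattini hV g.2))
    rw [pow_one, ← GrL.cls_pow hg, this, GrL.cls_one])
  have h2 : gam (Cfsg.fittingSubgroup G) (0 + 1) = ⊥ := by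
    rw [← Subgroup.map_subtype_inj, Subgroup.top_subtype_lowerCentralSeries, Subgroup.map_bot]
    exact le_bot_iff.1 ((H1.commutator_le_map_frattini (Cfsg.fittingSubgroup G)).trans h0)
  rw [h2, Subgroup.card_bot, mul_one, gam, Subgroup.lowerCentralSeries_zero, Subgroup.card_top] at h1
  let f : G →* MulAut (Cfsg.fittingSubgroup G) := MulAut.conjNormal
  have h3 : f.ker ≤ Cfsg.fittingSubgroup G := by
    refine le_trans (fun g hg => ?_) H1.centralizer_fitting_le
    rw [Subgroup.mem_centralizer_iff]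
    intro x hx
    have := congrArg Subtype.val (DFunLike.congr_fun (MonoidHom.mem_ker.1 hg) ⟨x, hx⟩)
    simp only [f, MulAut.conjNormal_apply, MulAut.one_apply] at this
    exact (mul_inv_eq_iff_eq_mul.1 this).symm
  have h4 : f.ker.index ≤ (Nat.card (Cfsg.fittingSubgroup G)).factorial := by
    rw [Subgroup.index_ker, ← Nat.card_perm]
    exact (Subgroup.card_le_card_group _).trans (Nat.card_le_card_of_injective
      (fun x : MulAut (Cfsg.fittingSubgroup G) => x.toEquiv) MulEquiv.toEquiv_injective)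
  rw [← f.ker.card_mul_index]
  exact Nat.mul_le_mul ((Subgroup.card_le_of_le h3).trans h1) (h4.trans (Nat.factorial_le h1))

end H2
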