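import Cfsg.Prelude.Def_AxialAlgebras

set_option autoImplicit false

namespace H2
open Cfsg Cfsg.Axial

variable {V : Type*} [AddCommGroup V] [Module ℝ V]

/-- working form of a Majorana pair -/
structure MAx (mul : V →ₗ[ℝ] V →ₗ[ℝ] V) (B : LinearMap.BilinForm ℝ V) (t : V ≃ₗ[ℝ] V) (a : V) :
    Prop where
  tm : ∀ u v : V, t (mul u v) = mul (t u) (t v)
  tb : ∀ u v : V, B (t u) (t v) = B u v
  idem : mul a a = a
  len : B a a = 1
  dec : ∀ v, ∃ x y z, v = B a v • a + x + y + z ∧ mul a x = 0 ∧ mul a y = (1/4 : ℝ) • y ∧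
    mul a z = (1/32 : ℝ) • z
  ta : t a = a
  t0 : ∀ x, mul a x = 0 → t x = x
  t4 : ∀ x, mul a x = (1/4 : ℝ) • x → t x = x
  t32 : ∀ x, mul a x = (1/32 : ℝ) • x → t x = -x
  f00 : ∀ x y, mul a x = 0 → mul a y = 0 → mul a (mul x y) = 0
  f04 : ∀ x y, mul a x = 0 → mul a y = (1/4 : ℝ) • y → mul a (mul x y) = (1/4 : ℝ) • mul x y
  f44 : ∀ x y, mul a x = (1/4 : ℝ) • x → mul a y = (1/4 : ℝ) • y →
    mul a (mul x y) = B a (mul x y) • a

theorem maj_mem_eigen (mul : V →ₗ[ℝ] V →ₗ[ℝ] V) (a x : V) (c : ℝ) :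
    x ∈ eigen mul a c ↔ mul a x = c • x := Module.End.mem_eigenspace_iff

theorem MAx.of_pair {mul : V →ₗ[ℝ] V →ₗ[ℝ] V} {B : LinearMap.BilinForm ℝ V}
    (hV : IsMajoranaAmbient mul B) {t : V ≃ₗ[ℝ] V} {a : V} (h : IsMajoranaPair mul B t a)
    (hn : B a a = 1) : MAx mul B t a := by
  obtain ⟨cm, bs, -, ba, -⟩ := hV
  obtain ⟨h1, h2, ⟨⟨-, hi, hs, hf⟩, hp⟩, ht, ht'⟩ := h
  have orth : ∀ x (c : ℝ), c ≠ 1 → mul a x = c • x → B a x = 0 := by
    intro x c hc hx
    have := ba a a x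
    rw [hx, hi, map_smul, smul_eq_mul] at this
    have h3 : (c - 1) * B a x = 0 := by linarith
    exact (mul_eq_zero.1 h3).resolve_left (sub_ne_zero.2 hc)
  have hle : ∀ c ∈ ({1, 0, 1/4} : Set ℝ), eigen mul a c ≤ eigenSum mul a {1, 0, 1/4} :=
    fun c hc => le_iSup₂_of_le c hc le_rfl
  refine ⟨h1, h2, hi, hn, fun v => ?_, ?_, fun x hx => ?_, fun x hx => ?_, fun x hx => ?_,
    fun x y hx hy => ?_, fun x y hx hy => ?_, fun x y hx hy => ?_⟩
  · have hv : v ∈ eigenSum mul a majoranaSpectrum := by rw [hs]; trivial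
    simp only [eigenSum, majoranaSpectrum, iSup_insert, iSup_singleton] at hv
    obtain ⟨u, hu, w, hw, rfl⟩ := Submodule.mem_sup.1 hv
    obtain ⟨x, hx, w', hw', rfl⟩ := Submodule.mem_sup.1 hw
    obtain ⟨y, hy, z, hz, rfl⟩ := Submodule.mem_sup.1 hw'
    rw [hp, Submodule.mem_span_singleton] at hu
    obtain ⟨c, rfl⟩ := hu
    rw [maj_mem_eigen] at hx hy hz
    refine ⟨x, y, z, ?_, by simpa using hx, hy, hz⟩
    simp only [map_add, map_smul, smul_eq_mul, hn, orth x 0 (by norm_num) hx,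
      orth y _ (by norm_num) hy, orth z _ (by norm_num) hz]
    module
  · exact ht a (hle 1 (by simp) ((maj_mem_eigen _ _ _ _).2 (by simpa using hi)))
  · exact ht x (hle 0 (by simp) ((maj_mem_eigen _ _ _ _).2 (by simpa using hx)))
  · exact ht x (hle (1/4) (by simp) ((maj_mem_eigen _ _ _ _).2 hx))
  · exact ht' x ((maj_mem_eigen _ _ _ _).2 hx)
  · have := hf 0 (by simp [majoranaSpectrum]) 0 (by simp [majoranaSpectrum]) x
      ((maj_mem_eigen _ _ _ _).2 (by simpa using hx)) y ((maj_mem_eigen _ _ _ _).2 (by simpa using hy))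
    rw [show monsterLaw (1 / 4 : ℝ) (1 / 32) 0 0 = {0} by norm_num [monsterLaw]] at this
    simp only [eigenSum, iSup_singleton, maj_mem_eigen] at this
    simpa using this
  · have := hf 0 (by simp [majoranaSpectrum]) (1/4) (by simp [majoranaSpectrum]) x
      ((maj_mem_eigen _ _ _ _).2 (by simpa using hx)) y ((maj_mem_eigen _ _ _ _).2 hy)
    rw [show monsterLaw (1 / 4 : ℝ) (1 / 32) 0 (1/4) = {1/4} by norm_num [monsterLaw]] at this
    simp only [eigenSum, iSup_singleton, maj_mem_eigen] at this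
    exact this
  · have := hf (1/4) (by simp [majoranaSpectrum]) (1/4) (by simp [majoranaSpectrum]) x
      ((maj_mem_eigen _ _ _ _).2 hx) y ((maj_mem_eigen _ _ _ _).2 hy)
    rw [show monsterLaw (1 / 4 : ℝ) (1 / 32) (1/4) (1/4) = {1, 0} by norm_num [monsterLaw]] at this
    simp only [eigenSum, iSup_insert, iSup_singleton] at this
    obtain ⟨u, hu, w, hw, e⟩ := Submodule.mem_sup.1 this
    rw [hp, Submodule.mem_span_singleton] at hu
    obtain ⟨c, rfl⟩ := hu
    rw [maj_mem_eigen] at hw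
    rw [← e]
    simp only [map_add, map_smul, smul_eq_mul, hn, orth w 0 (by norm_num) hw, hw, hi]
    module

theorem maj_eigen_map {mul : V →ₗ[ℝ] V →ₗ[ℝ] V} (g : V ≃ₗ[ℝ] V)
    (hg : ∀ u v, g (mul u v) = mul (g u) (g v)) (a : V) (c : ℝ) :
    eigen mul (g a) c = (eigen mul a c).map (g : V →ₗ[ℝ] V) := by
  ext x
  obtain ⟨y, rfl⟩ := g.surjective x
  rw [maj_mem_eigen, ← hg, ← map_smul, g.injective.eq_iff, ← maj_mem_eigen]
  constructor
  · intro h; exact Submodule.mem_map_of_mem h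
  · rintro ⟨z, hz, e⟩
    rwa [← g.injective e]

theorem maj_eigenSum_map {mul : V →ₗ[ℝ] V →ₗ[ℝ] V} (g : V ≃ₗ[ℝ] V)
    (hg : ∀ u v, g (mul u v) = mul (g u) (g v)) (a : V) (S : Set ℝ) :
    eigenSum mul (g a) S = (eigenSum mul a S).map (g : V →ₗ[ℝ] V) := by
  simp only [eigenSum, Submodule.map_iSup, maj_eigen_map g hg]

theorem maj_conj {mul : V →ₗ[ℝ] V →ₗ[ℝ] V} {B : LinearMap.BilinForm ℝ V} (g : V ≃ₗ[ℝ] V)
    (hg : ∀ u v, g (mul u v) = mul (g u) (g v)) {t : V ≃ₗ[ℝ] V} {a : V}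
    (hc : ∀ v, t (g v) = g (t v)) (h : IsMajoranaPair mul B t a) : IsMajoranaPair mul B t (g a) := by
  obtain ⟨h1, h2, ⟨⟨h0, hi, hs, hf⟩, hp⟩, ht, ht'⟩ := h
  refine ⟨h1, h2, ⟨⟨by simpa using h0, by rw [← hg, hi], ?_, ?_⟩, ?_⟩, ?_, ?_⟩
  · rw [maj_eigenSum_map g hg, hs, Submodule.map_top, LinearEquiv.range]
  · intro c hc d hd u hu v hv
    rw [maj_eigen_map g hg] at hu hv
    obtain ⟨u, hu, rfl⟩ := hu
    obtain ⟨v, hv, rfl⟩ := hv
    rw [maj_eigenSum_map g hg]
    exact ⟨_, hf c hc d hd u hu v hv, hg u v⟩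
  · rw [maj_eigen_map g hg, hp, Submodule.map_span, Set.image_singleton]; rfl
  · intro v hv
    rw [maj_eigenSum_map g hg] at hv
    obtain ⟨v, hv, rfl⟩ := hv
    have := ht v hv
    simp only [LinearEquiv.coe_coe] at this ⊢
    rw [hc, this]
  · intro v hv
    rw [maj_eigen_map g hg] at hv
    obtain ⟨v, hv, rfl⟩ := hv
    have := ht' v hv
    simp only [LinearEquiv.coe_coe] at this ⊢
    rw [hc, this, map_neg]

/-- the products in the case where `t` fixes the idempotent `b` -/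
theorem MAx.fixed {mul : V →ₗ[ℝ] V →ₗ[ℝ] V} {B : LinearMap.BilinForm ℝ V}
    (cm : ∀ u v, mul u v = mul v u) {t : V ≃ₗ[ℝ] V} {a b : V} (h : MAx mul B t a)
    (hb : mul b b = b) (hfix : t b = b) :
    mul a (mul a b) = (3 * B a b / 4) • a + (1/4 : ℝ) • mul a b ∧
    ∃ x y, x = b + (3 * B a b) • a - (4 : ℝ) • mul a b ∧ y = (4 : ℝ) • mul a b - (4 * B a b) • a ∧
      mul x y = (1/2 - B a b / 4) • y := by
  obtain ⟨x, y, z, e, hx, hy, hz⟩ := h.dec b
  set l := B a b with hl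
  have hz0 : z = 0 := by
    have h1 := congrArg t e
    rw [hfix, map_add, map_add, map_add, map_smul, h.ta, h.t0 x hx, h.t4 y hy, h.t32 z hz] at h1
    linear_combination (norm := module) (1/2 : ℝ) • h1 - (1/2 : ℝ) • e
  subst hz0
  rw [add_zero] at e
  have hab : mul a b = l • a + (1/4 : ℝ) • y := by
    have := congrArg (mul a) e
    rw [map_add, map_add, map_smul, h.idem, hx, hy, add_zero] at this
    exact this
  refine ⟨?_, x, y, ?_, ?_, ?_⟩
  · rw [hab, map_add, map_smul, map_smul, h.idem, hy]; module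
  · linear_combination (norm := module) (-1 : ℝ) • e + (4 : ℝ) • hab
  · linear_combination (norm := module) (-4 : ℝ) • hab
  · have h1 : mul (l • a + x + y) (l • a + x + y) = l • a + x + y := by rw [← e]; exact hb
    simp only [map_add, map_smul, LinearMap.add_apply, LinearMap.smul_apply, h.idem, hx, hy,
      cm x a, cm y a, cm y x] at h1
    have f1 := h.f00 x x hx hx
    have f2 := h.f04 x y hx hy
    have f3 := h.f44 y y hy hy
    have h2 := congrArg (mul a) h1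
    simp only [map_add, map_smul, h.idem, hx, hy, f1, f2, f3, smul_zero, map_zero] at h2
    have h3 := congrArg (mul a) h2
    simp only [map_add, map_smul, h.idem, hx, hy, f1, f2, f3, smul_zero, map_zero] at h3
    linear_combination (norm := module) (8/3 : ℝ) • h2 - (8/3 : ℝ) • h3

end H2
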