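import Cfsg.Agent.H2.Maj1

set_option autoImplicit false

namespace H2
open Cfsg Cfsg.Axial

variable {V : Type*} [AddCommGroup V] [Module ℝ V] {mul : V →ₗ[ℝ] V →ₗ[ℝ] V}
  {B : LinearMap.BilinForm ℝ V}

theorem MAx.sq {t : V ≃ₗ[ℝ] V} {a : V} (h : MAx mul B t a) : t * t = 1 := by
  ext v
  obtain ⟨x, y, z, e, hx, hy, hz⟩ := h.dec v
  change t (t v) = v
  rw [e]
  simp only [map_add, map_smul, map_neg, h.ta, h.t0 x hx, h.t4 y hy, h.t32 z hz, neg_neg]

theorem MAx.uniq {t t' : V ≃ₗ[ℝ] V} {a : V} (h : MAx mul B t a) (h' : MAx mul B t' a) : t = t' := by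
  ext v
  obtain ⟨x, y, z, e, hx, hy, hz⟩ := h.dec v
  rw [e]
  simp only [map_add, map_smul, h.ta, h.t0 x hx, h.t4 y hy, h.t32 z hz, h'.ta, h'.t0 x hx,
    h'.t4 y hy, h'.t32 z hz]

/-- automorphisms of product and form -/
def majAut (mul : V →ₗ[ℝ] V →ₗ[ℝ] V) (B : LinearMap.BilinForm ℝ V) : Subgroup (V ≃ₗ[ℝ] V) where
  carrier := {g | (∀ u v, g (mul u v) = mul (g u) (g v)) ∧ ∀ u v, B (g u) (g v) = B u v}
  one_mem' := ⟨fun _ _ => rfl, fun _ _ => rfl⟩
  mul_mem' := fun {g h} hg hh => ⟨fun u v => by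
    simp only [LinearEquiv.mul_apply, hh.1, hg.1], fun u v => by
    simp only [LinearEquiv.mul_apply, hh.2, hg.2]⟩
  inv_mem' := fun {g} hg => ⟨fun u v => by
    apply g.injective
    rw [hg.1]
    change g (g.symm _) = mul (g (g.symm u)) (g (g.symm v))
    simp, fun u v => by
    rw [← hg.2]
    change B (g (g.symm u)) (g (g.symm v)) = _
    simp⟩

theorem MAx.conj {t : V ≃ₗ[ℝ] V} {a : V} (h : MAx mul B t a) {g : V ≃ₗ[ℝ] V}
    (hg : g ∈ majAut mul B) : MAx mul B (g * t * g⁻¹) (g a) := by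
  have hm : g * t * g⁻¹ ∈ majAut mul B :=
    mul_mem (mul_mem hg (show t ∈ majAut mul B from ⟨h.tm, h.tb⟩)) (inv_mem hg)
  have e : ∀ v, (g * t * g⁻¹) (g v) = g (t v) := fun v => by
    change g (t (g.symm (g v))) = _
    simp
  have i0 : ∀ x, mul (g a) (g x) = 0 → mul a x = 0 := fun x hx => by
    rw [← hg.1] at hx; exact g.injective (by rw [hx, map_zero])
  have ic : ∀ x (c : ℝ), mul (g a) (g x) = c • g x → mul a x = c • x := fun x c hx => by
    rw [← hg.1] at hx; exact g.injective (by rw [hx, map_smul])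
  refine ⟨hm.1, hm.2, by rw [← hg.1, h.idem], by rw [hg.2, h.len], fun v => ?_, by rw [e, h.ta],
    fun x hx => ?_, fun x hx => ?_, fun x hx => ?_, fun x y hx hy => ?_, fun x y hx hy => ?_,
    fun x y hx hy => ?_⟩
  · obtain ⟨v, rfl⟩ := g.surjective v
    obtain ⟨x, y, z, e, hx, hy, hz⟩ := h.dec v
    refine ⟨g x, g y, g z, ?_, by rw [← hg.1, hx, map_zero], by rw [← hg.1, hy, map_smul],
      by rw [← hg.1, hz, map_smul]⟩
    rw [hg.2, ← map_smul, ← map_add, ← map_add, ← map_add, ← e]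
  · obtain ⟨x, rfl⟩ := g.surjective x
    rw [e, h.t0 x (i0 x hx)]
  · obtain ⟨x, rfl⟩ := g.surjective x
    rw [e, h.t4 x (ic x _ hx)]
  · obtain ⟨x, rfl⟩ := g.surjective x
    rw [e, h.t32 x (ic x _ hx), map_neg]
  · obtain ⟨x, rfl⟩ := g.surjective x
    obtain ⟨y, rfl⟩ := g.surjective y
    rw [← hg.1, ← hg.1, h.f00 x y (i0 x hx) (i0 y hy), map_zero]
  · obtain ⟨x, rfl⟩ := g.surjective x
    obtain ⟨y, rfl⟩ := g.surjective y
    rw [← hg.1, ← hg.1, h.f04 x y (i0 x hx) (ic y _ hy), map_smul]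
  · obtain ⟨x, rfl⟩ := g.surjective x
    obtain ⟨y, rfl⟩ := g.surjective y
    rw [← hg.1, ← hg.1, h.f44 x y (ic x _ hx) (ic y _ hy), map_smul, hg.2]

theorem maj_seq {t0 t1 : V ≃ₗ[ℝ] V} {b0 b1 : V} (h0 : MAx mul B t0 b0) (h1 : MAx mul B t1 b1) :
    ∃ a : ℤ → V, (∀ i : ℤ, MAx mul B ((t1 * t0) ^ i * t0) (a i)) ∧
      ∀ i j k : ℤ, j + k = 2 * i → ((t1 * t0) ^ i * t0) (a j) = a k := by
  have s0 := h0.sq
  have s1 := h1.sq
  have hr : t1 * t0 ∈ majAut mul B :=
    mul_mem (show t1 ∈ majAut mul B from ⟨h1.tm, h1.tb⟩) (show t0 ∈ majAut mul B from ⟨h0.tm, h0.tb⟩)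
  have e1 : t1 = (t1 * t0) * t0 := by rw [mul_assoc, s0, mul_one]
  have hinv : t0 * (t1 * t0) * t0⁻¹ = (t1 * t0)⁻¹ := by
    rw [mul_inv_rev, inv_eq_of_mul_eq_one_right s0, inv_eq_of_mul_eq_one_right s1, mul_assoc,
      mul_assoc, s0, mul_one]
  generalize t1 * t0 = r at hr e1 hinv
  have hc : ∀ k : ℤ, t0 * r ^ k = r ^ (-k) * t0 := by
    intro k
    rw [zpow_neg, ← inv_zpow, ← hinv, conj_zpow]
    simp
  refine ⟨fun i => if i % 2 = 0 then (r ^ (i / 2)) b0 else (r ^ (i / 2)) b1, fun i => ?_,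
    fun i j k hjk => ?_⟩
  · beta_reduce
    split_ifs with hi
    · convert h0.conj (zpow_mem hr (i / 2)) using 1
      rw [← zpow_neg, mul_assoc, hc, neg_neg, ← mul_assoc, ← zpow_add]
      congr 2; omega
    · convert h1.conj (zpow_mem hr (i / 2)) using 1
      rw [e1, ← zpow_neg, mul_assoc, mul_assoc, hc, neg_neg, ← mul_assoc, ← mul_assoc,
        ← zpow_add_one, ← zpow_add]
      congr 2; omega
  · by_cases hj : j % 2 = 0
    · have hk : k % 2 = 0 := by omega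
      simp only [hj, hk, if_true]
      rw [← LinearEquiv.mul_apply, mul_assoc, hc, ← mul_assoc, ← zpow_add, LinearEquiv.mul_apply,
        h0.ta]
      congr 2; omega
    · have hk : ¬ k % 2 = 0 := by omega
      simp only [hj, hk, if_false]
      have : t0 = r⁻¹ * t1 := by rw [e1]; simp
      rw [← LinearEquiv.mul_apply, mul_assoc, hc, ← mul_assoc, ← zpow_add, this, ← mul_assoc,
        ← zpow_sub_one, LinearEquiv.mul_apply, h1.ta]
      congr 2; omega

theorem MAx.sig {t : V ≃ₗ[ℝ] V} {a : V} (h : MAx mul B t a) (b s : V)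
    (hs : mul a b = s + (1/32 : ℝ) • (a + b)) :
    mul a (t b) = s + (1/32 : ℝ) • (a + t b) ∧
      mul a s = (7/32 : ℝ) • s + (3/4 * B a b - 25/1024) • a + (7/2048 : ℝ) • (b + t b) := by
  obtain ⟨x, y, z, e, hx, hy, hz⟩ := h.dec b
  set l := B a b with hl
  have e1 : t b = l • a + x + y - z := by
    conv_lhs => rw [e]
    simp only [map_add, map_smul, h.ta, h.t0 x hx, h.t4 y hy, h.t32 z hz]
    abel
  have e2 := congrArg (mul a) e
  simp only [map_add, map_smul, h.idem, hx, hy, hz] at e2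
  have e3 := congrArg (mul a) e1
  simp only [map_add, map_sub, map_smul, h.idem, hx, hy, hz] at e3
  have e4 : s = ((31 * l - 1) / 32) • a - (1/32 : ℝ) • x + (7/32 : ℝ) • y := by
    linear_combination (norm := module) e2 - hs - (1/32 : ℝ) • e
  have e5 := congrArg (mul a) e4
  simp only [map_add, map_sub, map_smul, h.idem, hx, hy, smul_zero] at e5
  constructor
  · linear_combination (norm := module) e3 - e4 - (1/32 : ℝ) • e1
  · linear_combination (norm := module) e5 - (7/32 : ℝ) • e4 - (7/2048 : ℝ) • e - (7/2048 : ℝ) • e1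

theorem maj_core (cm : ∀ u v, mul u v = mul v u) (ba : ∀ u v w : V, B u (mul v w) = B (mul u v) w)
    {t : V ≃ₗ[ℝ] V} {a0 a1 b1 a2 b2 s se so : V} {l m : ℝ} (h : MAx mul B t a0)
    (i1 : mul a1 a1 = a1) (j1 : mul b1 b1 = b1)
    (p01 : mul a0 a1 = s + (1/32 : ℝ) • (a0 + a1)) (q01 : mul a0 b1 = s + (1/32 : ℝ) • (a0 + b1))
    (p11 : mul b1 a1 = so + (1/32 : ℝ) • (b1 + a1))
    (p02 : mul a0 a2 = se + (1/32 : ℝ) • (a0 + a2)) (q02 : mul a0 b2 = se + (1/32 : ℝ) • (a0 + b2))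
    (r0 : mul a0 s = (7/32 : ℝ) • s + (3/4 * l - 25/1024) • a0 + (7/2048 : ℝ) • (b1 + a1))
    (r1 : mul a1 s = (7/32 : ℝ) • s + (3/4 * l - 25/1024) • a1 + (7/2048 : ℝ) • (a0 + a2))
    (r2 : mul b1 s = (7/32 : ℝ) • s + (3/4 * l - 25/1024) • b1 + (7/2048 : ℝ) • (b2 + a0))
    (c1 : B a0 a1 = l) (d1 : B a0 b1 = l) (c2 : B a0 a2 = m) (d2 : B a0 b2 = m)
    (cs : B a0 s = (31 * l - 1) / 32) (co : B a0 so = (30 * l + m - 1) / 32) :
    mul a0 so = (1/6 * l - 19/3072) • (a1 + b1) + (7/6144 : ℝ) • (a2 + b2) +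
        (-32/3 * l^2 + 5/3 * l - 1/24 * m - 127/3072) • a0 + (7/96 : ℝ) • se +
        (32/3 * l - 19/48) • s ∧
    mul s s = (49/768 * l - 245/196608) • (a1 + b1) + (49/196608 : ℝ) • (a2 + b2) +
        (7/6 * l^2 - 7/384 * l + 7/1536 * m - 7/98304) • a0 - (7/1536 : ℝ) • se +
        (-5/12 * l - 13/1536) • s + (7/2048 : ℝ) • so := by
  have i0 := h.idem
  have p10 := (cm _ _).trans p01
  have q10 := (cm _ _).trans q01
  have p11' := (cm _ _).trans p11
  have r0' := (cm _ _).trans r0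
  have r1' := (cm _ _).trans r1
  have r2' := (cm _ _).trans r2
  obtain ⟨al, hal⟩ : ∃ al, al = (-4 : ℝ) • s + (3 * l - 1/8) • a0 + (7/16 : ℝ) • (a1 + b1) := ⟨_, rfl⟩
  obtain ⟨be, hbe⟩ : ∃ be, be = (4 : ℝ) • s - (4 * l - 1/8) • a0 + (1/16 : ℝ) • (a1 + b1) := ⟨_, rfl⟩
  have ea : mul a0 al = 0 := by
    rw [hal]
    simp only [map_add, map_smul, i0, p01, q01, r0]
    module
  have eb : mul a0 be = (1/4 : ℝ) • be := by
    rw [hbe]
    simp only [map_add, map_sub, map_smul, i0, p01, q01, r0]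
    module
  have f1 := h.f00 al al ea ea
  have f2 := h.f04 al be ea eb
  have f3 := h.f44 be be eb eb
  have g1 : B a0 (mul al al) = 0 := by rw [ba, ea]; simp
  have hD : mul al al - mul be be = (-23/8 * l + 75/256) • (a1 + b1) - (7/512 : ℝ) • (a2 + b2) +
      (-l^2 + 1/4 * l - 9/256) • a0 + (8 * l - 2) • s + (3/8 : ℝ) • so := by
    rw [hal, hbe]
    simp only [map_add, map_sub, map_smul, LinearMap.add_apply, LinearMap.sub_apply,
      LinearMap.smul_apply, i0, i1, j1, p01, q01, p10, q10, p11, p11', r0, r1, r2, r0', r1', r2']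
    module
  have hU : mul al al + mul al be = (-93/64 * l + 143/512) • (a1 + b1) - (7/1024 : ℝ) • (a2 + b2) +
      (3/32 * l - 9/512) • a0 + (3 * l - 1) • s + (7/16 : ℝ) • so := by
    rw [hal, hbe]
    simp only [map_add, map_sub, map_smul, LinearMap.add_apply, LinearMap.sub_apply,
      LinearMap.smul_apply, i0, i1, j1, p01, q01, p10, q10, p11, p11', r0, r1, r2, r0', r1', r2']
    module
  have k1 := congrArg (B a0) hD
  simp only [map_add, map_sub, map_smul, smul_eq_mul, g1, c1, d1, c2, d2, cs, co, h.len] at k1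
  have k2 : B a0 (mul be be) = -l^2 + l + m / 64 - 1/64 := by linarith
  have k3 := congrArg (mul a0) hD
  simp only [map_add, map_sub, map_smul, f1, f3, k2, i0, p01, q01, p02, q02, r0] at k3
  have k4 := congrArg (mul a0) hU
  simp only [map_add, map_sub, map_smul, f1, f2, i0, p01, q01, p02, q02, r0] at k4
  rw [hal, hbe] at k4
  simp only [map_add, map_sub, map_smul, LinearMap.add_apply, LinearMap.sub_apply,
      LinearMap.smul_apply, i0, i1, j1, p01, q01, p10, q10, p11, p11', r0, r1, r2, r0', r1', r2'] at k4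
  constructor
  · linear_combination (norm := module) (-8/3 : ℝ) • k3
  · linear_combination (norm := module) (-1/4 : ℝ) • k4 + (7/24 : ℝ) • k3

end H2
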