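import Cfsg.Agent.H2.Maj2

set_option autoImplicit false

namespace H2
open Cfsg Cfsg.Axial

theorem maj_solve (l m L3 L4 L5 L6 : ℝ)
    (h3 : L3 = (-32768/7)*l^3 + (36864/7)*l^2 + (-1920/7)*l*m + (-2169/7)*l + (-33/7)*m + (33/7))
    (h4 : L4 = (8388608/7)*l^4 + (-9601024/7)*l^3 + (65536)*l^2*m + (110592)*l^2 + (-640/7)*l*m + (-19840/7)*l + (-128/7)*m^2 + (-3)*m + (156/7))
    (h5 : L5 = (-13958643712/49)*l^5 + (16273899520/49)*l^4 + (-754974720/49)*l^3*m + (-1633419264/49)*l^3 + (12582912/49)*l^2*m + (8683520/7)*l^2 + (475136/49)*l*m^2 + (259584/49)*l*m + (-137721/7)*l + (-256/49)*m^2 + (-5256/49)*m + (5512/49))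
    (h6 : L6 = (3298534883328/49)*l^6 + (-3917010173952/49)*l^5 + (177167400960/49)*l^4*m + (469317451776/49)*l^4 + (-5511315456/49)*l^3*m + (-22767894528/49)*l^3 + (-25165824/7)*l^2*m^2 + (-97910784/49)*l^2*m + (542429184/49)*l^2 + (2457600/49)*l*m^2 + (5162880/49)*l*m + (-904320/7)*l + (16384/49)*m^3 + (1152/49)*m^2 + (-46500/49)*m + (29013/49))
    (p1 : (-2097152)*l^4 + (2326528)*l^3 + (-40960)*l^2*m + (-184320)*l^2 + (-8896)*l*m + (4800)*l + (-128)*m^2 + (167)*m + (-39) = 0)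
    (p2 : (-536870912)*l^5 + (631242752)*l^4 + (-31457280)*l^3*m + (-68714496)*l^3 + (3334144)*l^2*m + (2764800)*l^2 + (-114688)*l*m^2 + (-137536)*l*m + (-46784)*l + (-2304)*m^2 + (2031)*m + (273) = 0) : L4 = 1 ∨ L5 = 1 ∨ L6 = 1 := by
  have q : (268435456)*l^5 + (-283115520)*l^4 + (1048576)*l^3*m + (10911744)*l^3 + (2408448)*l^2*m + (356352)*l^2 + (-25408)*l*m + (-19648)*l + (-195)*m + (195) = 0 := by
    linear_combination (1/5) * (p2 - (896 * l + 18) * p1)
  have r : l * (64 * l - 1) * (64 * l - 1) * (256 * l - 5) * (128 * l - 3) * (32 * l - 1) * (256 * l - 13) * (8 * l - 1) * (l - 1) = 0 := by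
    linear_combination (1/3211264) * (((1048576)*l^3 + (2408448)*l^2 + (-25408)*l + (-195))^2 * p1 - ((-8589934592)*l^5 + (-144216948736)*l^4 + (-134217728)*l^3*m + (-18813026304)*l^3 + (-308281344)*l^2*m + (681840640)*l^2 + (3252224)*l*m + (-5023360)*l + (24960)*m + (-7605)) * q)
  simp only [mul_eq_zero] at r
  rcases r with (((((((r | r) | r) | r) | r) | r) | r) | r) | r
  · subst r
    have : m = 1 := by linarith
    subst this
    left; rw [h4]; norm_num
  · have : l = 1/64 := by linarith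
    subst this
    have : (64 * m - 1) * (8 * m - 1) = 0 := by linear_combination (-4) * p1
    rcases mul_eq_zero.1 this with h | h
    · have : m = 1/64 := by linarith
      subst this
      right; right; rw [h6]; norm_num
    · have : m = 1/8 := by linarith
      subst this
      left; rw [h4]; norm_num
  · have : l = 1/64 := by linarith
    subst this
    have : (64 * m - 1) * (8 * m - 1) = 0 := by linear_combination (-4) * p1
    rcases mul_eq_zero.1 this with h | h
    · have : m = 1/64 := by linarith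
      subst this
      right; right; rw [h6]; norm_num
    · have : m = 1/8 := by linarith
      subst this
      left; rw [h4]; norm_num
  · have : l = 5/256 := by linarith
    subst this
    have : m = 13/256 := by linarith
    subst this
    right; right; rw [h6]; norm_num
  · have : l = 3/128 := by linarith
    subst this
    have : m = 3/128 := by linarith
    subst this
    right; left; rw [h5]; norm_num
  · have : l = 1/32 := by linarith
    subst this
    have : m = 0 := by linarith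
    subst this
    left; rw [h4]; norm_num
  · have : l = 13/256 := by linarith
    subst this
    have : m = 13/256 := by linarith
    subst this
    right; right; rw [h6]; norm_num
  · have : l = 1/8 := by linarith
    subst this
    have : m = 1 := by linarith
    subst this
    left; rw [h4]; norm_num
  · have : l = 1 := by linarith
    subst this
    have : m = 1 := by linarith
    subst this
    left; rw [h4]; norm_num

theorem maj_const {α : Type*} (f : ℤ → α) (h : ∀ i, f (i + 1) = f i) (i : ℤ) : f i = f 0 := by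
  induction i using Int.induction_on with
  | zero => rfl
  | succ n ih => rw [h, ih]
  | pred n ih => rw [← ih, ← h]; congr 1; ring

variable {V : Type*} [AddCommGroup V] [Module ℝ V] {mul : V →ₗ[ℝ] V →ₗ[ℝ] V}
  {B : LinearMap.BilinForm ℝ V}

theorem maj_facts (cm : ∀ u v, mul u v = mul v u) (bs : ∀ u v : V, B u v = B v u)
    (ba : ∀ u v w : V, B u (mul v w) = B (mul u v) w) (a : ℤ → V) (t : ℤ → V ≃ₗ[ℝ] V)
    (H : ∀ i, MAx mul B (t i) (a i)) (Ht : ∀ i j k, j + k = 2 * i → t i (a j) = a k) :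
    ∃ (l m : ℝ) (s : V) (u : ℤ → V),
      (∀ i j, j = i + 1 → B (a i) (a j) = l) ∧ (∀ i j, j = i + 2 → B (a i) (a j) = m) ∧
      (∀ i j, j = i + 2 → u j = u i) ∧
      (∀ i j, j = i + 2 → mul (a i) (a j) = u i + (1/32 : ℝ) • (a i + a j)) ∧
      (∀ i j k, j = i + 2 → k = i - 2 → mul (a i) (u i) =
        (7/32 : ℝ) • u i + (3/4 * m - 25/1024) • a i + (7/2048 : ℝ) • (a j + a k)) ∧
      (∀ i, B (a i) s = (31 * l - 1) / 32) ∧ (∀ i, B (a i) (u i) = (31 * m - 1) / 32) ∧
      (∀ i j, j = i - 1 → B (a i) (u j) = (30 * l + m - 1) / 32) ∧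
      ∀ i i1 j1 i2 j2, i1 = i + 1 → j1 = i - 1 → i2 = i + 2 → j2 = i - 2 →
        mul (a i) (u j1) = (1/6 * l - 19/3072) • (a i1 + a j1) + (7/6144 : ℝ) • (a i2 + a j2) +
          (-32/3 * l^2 + 5/3 * l - 1/24 * m - 127/3072) • a i + (7/96 : ℝ) • u i +
          (32/3 * l - 19/48) • s ∧
        mul s s = (49/768 * l - 245/196608) • (a i1 + a j1) + (49/196608 : ℝ) • (a i2 + a j2) +
          (7/6 * l^2 - 7/384 * l + 7/1536 * m - 7/98304) • a i - (7/1536 : ℝ) • u i +
          (-5/12 * l - 13/1536) • s + (7/2048 : ℝ) • u j1 := by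
  have BR : ∀ c i j i' j', i + i' = 2 * c → j + j' = 2 * c → B (a i') (a j') = B (a i) (a j) := by
    intro c i j i' j' h1 h2
    rw [← Ht c i i' h1, ← Ht c j j' h2, (H c).tb]
  obtain ⟨l, hl⟩ : ∃ l, l = B (a 0) (a (0 + 1)) := ⟨_, rfl⟩
  have B1 : ∀ i j, j = i + 1 → B (a i) (a j) = l := by
    rintro i _ rfl
    rw [hl]
    exact maj_const (fun i => B (a i) (a (i + 1))) (fun i => by
      rw [bs (a i)]
      exact BR (i + 1) _ _ _ _ (by ring) (by ring)) i
  have SG : ∀ i j k (x : V), j + k = 2 * i → mul (a i) (a j) = x + (1/32 : ℝ) • (a i + a j) →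
      mul (a i) (a k) = x + (1/32 : ℝ) • (a i + a k) ∧ mul (a i) x = (7/32 : ℝ) • x +
        (3/4 * B (a i) (a j) - 25/1024) • a i + (7/2048 : ℝ) • (a j + a k) := by
    intro i j k x h1 h2
    have := (H i).sig (a j) x h2
    rwa [Ht i j k h1] at this
  obtain ⟨s, hs⟩ : ∃ s, s = mul (a 0) (a (0 + 1)) - (1/32 : ℝ) • (a 0 + a (0 + 1)) := ⟨_, rfl⟩
  have P1 : ∀ i j, j = i + 1 → mul (a i) (a j) = s + (1/32 : ℝ) • (a i + a j) := by
    rintro i _ rfl
    have := maj_const (fun i => mul (a i) (a (i + 1)) - (1/32 : ℝ) • (a i + a (i + 1))) (fun i => by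
      have := (SG (i + 1) (i + 1 + 1) i _ (by ring) (sub_add_cancel _ _).symm).1
      rw [cm] at this
      linear_combination (norm := module) (-1 : ℝ) • this) i
    rw [hs]
    linear_combination (norm := module) this
  have P3 : ∀ i j k, j = i + 1 → k = i - 1 → mul (a i) s = (7/32 : ℝ) • s +
      (3/4 * l - 25/1024) • a i + (7/2048 : ℝ) • (a j + a k) := by
    intro i j k h1 h2
    have := (SG i j k s (by omega) (P1 i j h1)).2
    rwa [B1 i j h1] at this
  obtain ⟨u, hu⟩ : ∃ u : ℤ → V, u = fun i => mul (a i) (a (i + 2)) - (1/32 : ℝ) • (a i + a (i + 2)) :=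
    ⟨_, rfl⟩
  have P2 : ∀ i j, j = i + 2 → mul (a i) (a j) = u i + (1/32 : ℝ) • (a i + a j) := by
    rintro i _ rfl
    rw [hu]
    exact (sub_add_cancel _ _).symm
  have U : ∀ i j, j = i + 2 → u j = u i := by
    intro i j h
    have h1 := (SG j (j + 2) i _ (by omega) (P2 j _ rfl)).1
    have h2 := P2 i j h
    rw [cm] at h2
    linear_combination (norm := module) h2 - h1
  have Bs : ∀ i, B (a i) s = (31 * l - 1) / 32 := by
    intro i
    have := congrArg (B (a i)) (P1 i _ rfl)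
    rw [ba, (H i).idem] at this
    simp only [map_add, map_smul, smul_eq_mul, (H i).len, B1 i _ rfl] at this
    linarith
  obtain ⟨m, hm⟩ : ∃ m, m = B (a 0) (a (0 + 2)) := ⟨_, rfl⟩
  have B2 : ∀ i j, j = i + 2 → B (a i) (a j) = m := by
    rintro i _ rfl
    rw [hm]
    refine maj_const (fun i => B (a i) (a (i + 2))) (fun i => ?_) i
    have e : B (a (i + 1)) (mul (a (i + 2)) s) = B (a (i + 2)) (mul (a (i + 1)) s) := by
      rw [ba, ba, cm]
    rw [P3 (i + 2) (i + 1 + 2) (i + 1) (by ring) (by ring), P3 (i + 1) (i + 2) i (by ring) (by ring)] at e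
    simp only [map_add, map_smul, smul_eq_mul, (H _).len, Bs, bs (a (i + 2)) (a (i + 1)),
      bs (a (i + 2)) (a i)] at e
    linarith
  have P4 : ∀ i j k, j = i + 2 → k = i - 2 → mul (a i) (u i) =
        (7/32 : ℝ) • u i + (3/4 * m - 25/1024) • a i + (7/2048 : ℝ) • (a j + a k) := by
    intro i j k h1 h2
    have := (SG i j k _ (by omega) (P2 i j h1)).2
    rwa [B2 i j h1] at this
  have Bu : ∀ i, B (a i) (u i) = (31 * m - 1) / 32 := by
    intro i
    have := congrArg (B (a i)) (P2 i _ rfl)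
    rw [ba, (H i).idem] at this
    simp only [map_add, map_smul, smul_eq_mul, (H i).len, B2 i _ rfl] at this
    linarith
  have Bo : ∀ i j, j = i - 1 → B (a i) (u j) = (30 * l + m - 1) / 32 := by
    intro i j h
    have := congrArg (B (a i)) (P2 j (i + 1) (by omega))
    rw [ba, cm, P1 j i (by omega), bs] at this
    simp only [map_add, map_smul, smul_eq_mul, Bs, bs (a (i + 1)) (a j), bs (a (i + 1)) (a i),
      bs (a i) (a j), B1 i _ rfl, B1 j i (by omega), B2 j (i + 1) (by omega)] at this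
    linarith
  refine ⟨l, m, s, u, B1, B2, U, P2, P4, Bs, Bu, Bo, fun i i1 j1 i2 j2 h1 h2 h3 h4 => ?_⟩
  refine maj_core cm ba (H i) (H i1).idem (H j1).idem (P1 i i1 h1)
    (SG i i1 j1 s (by omega) (P1 i i1 h1)).1 (P2 j1 i1 (by omega)) (P2 i i2 h3)
    (SG i i2 j2 _ (by omega) (P2 i i2 h3)).1 ?_ ?_ ?_ (B1 i i1 h1) ?_ (B2 i i2 h3) ?_ (Bs i)
    (Bo i j1 h2)
  · rw [add_comm (a j1)]; exact P3 i i1 j1 h1 h2
  · rw [add_comm (a i)]; exact P3 i1 i2 i (by omega) (by omega)
  · rw [add_comm (a j2)]; exact P3 j1 i j2 (by omega) (by omega)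
  · rw [bs]; exact B1 j1 i (by omega)
  · rw [bs]; exact B2 j2 i (by omega)

theorem maj_final (cm : ∀ u v, mul u v = mul v u) (bs : ∀ u v : V, B u v = B v u)
    (ba : ∀ u v w : V, B u (mul v w) = B (mul u v) w) (a : ℤ → V) (t : ℤ → V ≃ₗ[ℝ] V)
    (H : ∀ i, MAx mul B (t i) (a i)) (Ht : ∀ i j k, j + k = 2 * i → t i (a j) = a k) :
    B (a 0) (a 4) = 1 ∨ B (a 0) (a 5) = 1 ∨ B (a 0) (a 6) = 1 := by
  obtain ⟨l, m, s, u, B1, B2, U, P2, P4, Bs, Bu, Bo, C⟩ := maj_facts cm bs ba a t H Ht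
  have BR : ∀ c i j i' j', i + i' = 2 * c → j + j' = 2 * c → B (a i') (a j') = B (a i) (a j) := by
    intro c i j i' j' h1 h2
    rw [← Ht c i i' h1, ← Ht c j j' h2, (H c).tb]
  have BS : ∀ i j, B (a (-2)) (a i) = B (a 0) (a j) ∨ j ≠ i + 2 := by
    intro i j
    by_cases h : j = i + 2
    · left
      rw [BR 0 2 (-i) (-2) i (by ring) (by ring), BR 1 0 j 2 (-i) (by ring) (by omega)]
    · exact Or.inr h
  obtain ⟨L3, hL3⟩ : ∃ x, B (a 0) (a 3) = x := ⟨_, rfl⟩
  obtain ⟨L4, hL4⟩ : ∃ x, B (a 0) (a 4) = x := ⟨_, rfl⟩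
  obtain ⟨L5, hL5⟩ : ∃ x, B (a 0) (a 5) = x := ⟨_, rfl⟩
  obtain ⟨L6, hL6⟩ : ∃ x, B (a 0) (a 6) = x := ⟨_, rfl⟩
  have n1 : B (a (-2)) (a 1) = L3 := ((BS 1 3).resolve_right (by norm_num)).trans hL3
  have n2 : B (a (-2)) (a 2) = L4 := ((BS 2 4).resolve_right (by norm_num)).trans hL4
  have n3 : B (a (-2)) (a 3) = L5 := ((BS 3 5).resolve_right (by norm_num)).trans hL5
  have n4 : B (a (-2)) (a 4) = L6 := ((BS 4 6).resolve_right (by norm_num)).trans hL6
  have n5 : B (a 2) (a (-1)) = L3 := (BR 1 0 3 2 (-1) (by norm_num) (by norm_num)).trans hL3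
  have u1 : u 1 = u (-1) := U _ _ (by norm_num)
  have u2 : u 2 = u 0 := U _ _ (by norm_num)
  have u3 : u 3 = u (-1) := (U 1 3 (by norm_num)).trans u1
  have um2 : u (-2) = u 0 := (U (-2) 0 (by norm_num)).symm
  have um3 : u (-3) = u (-1) := (U (-3) (-1) (by norm_num)).symm
  obtain ⟨A0, E0⟩ := C 0 1 (-1) 2 (-2) (by norm_num) (by norm_num) (by norm_num) (by norm_num)
  obtain ⟨-, E1⟩ := C 1 2 0 3 (-1) (by norm_num) (by norm_num) (by norm_num) (by norm_num)
  obtain ⟨-, E2⟩ := C 2 3 1 4 0 (by norm_num) (by norm_num) (by norm_num) (by norm_num)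
  obtain ⟨A3, -⟩ := C 3 4 2 5 1 (by norm_num) (by norm_num) (by norm_num) (by norm_num)
  rw [u1] at E1
  rw [u1, u2] at E2
  rw [u2, u3] at A3
  have F := E0.symm.trans E1
  have R := E0.symm.trans E2
  have Q0 := P4 0 2 (-2) (by norm_num) (by norm_num)
  have P02 := P2 0 2 (by norm_num)
  have len := fun i => (H i).len
  have x01 := B1 0 1 (by norm_num)
  have x10 := (bs _ _).trans x01
  have x0m1 := (bs _ _).trans (B1 (-1) 0 (by norm_num))
  have x21 := (bs _ _).trans (B1 1 2 (by norm_num))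
  have x23 := B1 2 3 (by norm_num)
  have x32 := (bs _ _).trans x23
  have xm2m1 := B1 (-2) (-1) (by norm_num)
  have x02 := B2 0 2 (by norm_num)
  have x20 := (bs _ _).trans x02
  have xm20 := B2 (-2) 0 (by norm_num)
  have x0m2 := (bs _ _).trans xm20
  have x2m2 := (bs _ _).trans n2
  have x30 := (bs _ _).trans hL3
  have x3m2 := (bs _ _).trans n3
  have y0e := Bu 0
  have y2e := u2 ▸ Bu 2
  have ym2e := um2 ▸ Bu (-2)
  have y0o := Bo 0 (-1) (by norm_num)
  have y2o := u1 ▸ Bo 2 1 (by norm_num)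
  have ym2o := um3 ▸ Bo (-2) (-3) (by norm_num)
  have y1e := Bo 1 0 (by norm_num)
  have y3e := u2 ▸ Bo 3 2 (by norm_num)
  have ym1e := um2 ▸ Bo (-1) (-2) (by norm_num)
  have e3 := congrArg (B (a 0)) F
  simp only [map_add, map_sub, map_smul, smul_eq_mul, len, Bs, x01, x0m1, x02, x0m2, hL3, y0e,
    y0o] at e3
  have e4 := congrArg (B (a 2)) F
  simp only [map_add, map_sub, map_smul, smul_eq_mul, len, Bs, x21, x23, x20, x2m2, n5, y2e,
    y2o] at e4
  have e5 := congrArg (B (a (-2))) F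
  simp only [map_add, map_sub, map_smul, smul_eq_mul, len, Bs, xm2m1, xm20, n1, n2, n3, ym2e,
    ym2o] at e5
  have e6 := congrArg (B (a (-2))) R
  simp only [map_add, map_sub, map_smul, smul_eq_mul, len, Bs, xm2m1, xm20, n1, n2, n3, n4, ym2e,
    ym2o] at e6
  have z1 := congrArg (B (u 0)) P02
  rw [ba, cm, Q0, bs] at z1
  simp only [map_add, map_smul, smul_eq_mul, len, bs (u 0) (a _), y0e, y2e, x20, x2m2] at z1
  have z2 := congrArg (B (u (-1))) P02
  rw [ba, cm, A0, bs] at z2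
  simp only [map_add, map_smul, smul_eq_mul, len, bs (u (-1)) (a _), bs (u (-1)) (u 0), y0o, y2o,
    y2e, x20, x2m2, x21, n5, Bs] at z2
  have e7 := congrArg (B (u 0)) F
  simp only [map_add, map_sub, map_smul, smul_eq_mul, bs (u 0) (a _), y0e, y2e, ym2e, y1e, y3e,
    ym1e] at e7
  have e8 : B (a 3) (mul (a 0) (u 0)) = B (a 0) (mul (a 3) (u 0)) := by rw [ba, ba, cm]
  rw [Q0, A3] at e8
  simp only [map_add, map_smul, smul_eq_mul, y3e, x30, x32, x3m2, hL3, hL4, hL5, x01, x02, y0o,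
    Bs] at e8
  rw [hL4, hL5, hL6]
  have h3 : L3 = (-32768/7)*l^3 + (36864/7)*l^2 + (-1920/7)*l*m + (-2169/7)*l + (-33/7)*m + (33/7) := by
    linear_combination (-196608/49) * e3
  subst h3
  have h4 : L4 = (8388608/7)*l^4 + (-9601024/7)*l^3 + (65536)*l^2*m + (110592)*l^2 + (-640/7)*l*m + (-19840/7)*l + (-128/7)*m^2 + (-3)*m + (156/7) := by
    linear_combination (196608/49) * e4
  subst h4
  have h5 : L5 = (-13958643712/49)*l^5 + (16273899520/49)*l^4 + (-754974720/49)*l^3*m + (-1633419264/49)*l^3 + (12582912/49)*l^2*m + (8683520/7)*l^2 + (475136/49)*l*m^2 + (259584/49)*l*m + (-137721/7)*l + (-256/49)*m^2 + (-5256/49)*m + (5512/49) := by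
    linear_combination (-196608/49) * e5
  subst h5
  refine maj_solve l m _ _ _ L6 rfl rfl rfl ?_ ?_ ?_
  · linear_combination (-196608/49) * e6
  · linear_combination (524288/7) * (e7 - (49/6144) * z1 + (49/6144) * z2)
  · linear_combination (1792/3) * e8

end H2
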