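import Mathlib

set_option autoImplicit false

namespace H2

section
variable {F : Type*} [Field F] {G : Type*} [Group G] [Fintype G] {V : Type*} [AddCommGroup V]
  [Module F V] (ρ : Representation F G V)

theorem sd_avg (s0 : V →ₗ[F] V) : ∃ s : V →ₗ[F] V, (∀ g x, s (ρ g x) = ρ g (s x)) ∧
    ∀ x, s x = (Fintype.card G : F)⁻¹ • ∑ g : G, ρ g (s0 (ρ g⁻¹ x)) := by
  refine ⟨(Fintype.card G : F)⁻¹ • ∑ g : G, (ρ g) ∘ₗ s0 ∘ₗ (ρ g⁻¹), fun g x => ?_, fun x => ?_⟩
  · simp only [LinearMap.smul_apply, LinearMap.coe_sum, Finset.sum_apply, LinearMap.comp_apply,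
      map_smul, map_sum]
    congr 1
    symm
    refine Fintype.sum_equiv (Equiv.mulLeft g) _ _ (fun h => ?_)
    simp only [Equiv.coe_mulLeft, mul_inv_rev, map_mul, Module.End.mul_apply,
      Representation.inv_self_apply]
  · simp only [LinearMap.smul_apply, LinearMap.coe_sum, Finset.sum_apply, LinearMap.comp_apply]

theorem sd_proj (hc : (Fintype.card G : F) ≠ 0) (R : Submodule F V)
    (hR : ∀ g, ∀ x ∈ R, ρ g x ∈ R) : ∃ π : V →ₗ[F] V, (∀ g x, π (ρ g x) = ρ g (π x)) ∧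
      (∀ x, π x ∈ R) ∧ ∀ x ∈ R, π x = x := by
  obtain ⟨f, hf⟩ := LinearMap.exists_extend (LinearMap.id : R →ₗ[F] R)
  obtain ⟨s, hs, hs'⟩ := sd_avg ρ (R.subtype ∘ₗ f)
  refine ⟨s, hs, fun x => ?_, fun x hx => ?_⟩
  · rw [hs']
    exact R.smul_mem _ (R.sum_mem (fun g _ => hR _ _ (f _).2))
  · rw [hs']
    have : ∀ g : G, ρ g ((R.subtype ∘ₗ f) (ρ g⁻¹ x)) = x := by
      intro g
      have h1 := LinearMap.congr_fun hf ⟨_, hR g⁻¹ x hx⟩
      simp only [LinearMap.comp_apply, Submodule.subtype_apply, LinearMap.id_apply] at h1 ⊢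
      rw [h1]
      simp
    simp only [this, Finset.sum_const, Finset.card_univ]
    rw [← Nat.cast_smul_eq_nsmul F, smul_smul, inv_mul_cancel₀ hc, one_smul]

theorem sd_sect (hc : (Fintype.card G : F) ≠ 0) (T : V →ₗ[F] V)
    (hT : ∀ g x, T (ρ g x) = ρ g (T x)) : ∃ s : V →ₗ[F] V, (∀ g x, s (ρ g x) = ρ g (s x)) ∧
      ∀ x, T (s (T x)) = T x := by
  obtain ⟨r, hr⟩ := LinearMap.exists_rightInverse_of_surjective T.rangeRestrict
    (LinearMap.range_rangeRestrict T)
  obtain ⟨f, hf⟩ := LinearMap.exists_extend r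
  obtain ⟨s, hs, hs'⟩ := sd_avg ρ f
  refine ⟨s, hs, fun x => ?_⟩
  have h0 : ∀ y, T (f (T y)) = T y := by
    intro y
    have h1 := LinearMap.congr_fun hf ⟨T y, LinearMap.mem_range_self T y⟩
    have h2 := congrArg Subtype.val (LinearMap.congr_fun hr ⟨T y, LinearMap.mem_range_self T y⟩)
    simp only [LinearMap.comp_apply, Submodule.subtype_apply, LinearMap.id_apply,
      LinearMap.codRestrict_apply, LinearMap.rangeRestrict] at h1 h2
    rw [h1, h2]
  rw [hs', map_smul, map_sum]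
  have : ∀ g : G, T (ρ g (f (ρ g⁻¹ (T x)))) = T x := by
    intro g
    rw [hT, ← hT g⁻¹, h0, hT]
    simp
  simp only [this, Finset.sum_const, Finset.card_univ]
  rw [← Nat.cast_smul_eq_nsmul F, smul_smul, inv_mul_cancel₀ hc, one_smul]

theorem sd_ker [FiniteDimensional F V] (hc : (Fintype.card G : F) ≠ 0) (T : V →ₗ[F] V)
    (hT : ∀ g x, T (ρ g x) = ρ g (T x))
    (h : ∀ f : V →ₗ[F] V, (∀ g x, f (ρ g x) = ρ g (f x)) → ∀ x, T x = 0 → f x ∈ LinearMap.range T) :
    ∀ x, T x = 0 → x = 0 := by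
  obtain ⟨π, hπ, hπ1, hπ2⟩ := sd_proj ρ hc (LinearMap.ker T) (fun g x hx => by
    rw [LinearMap.mem_ker] at hx ⊢
    rw [hT, hx, map_zero])
  obtain ⟨s, hs, hs'⟩ := sd_sect ρ hc T hT
  let P : Submodule F (V →ₗ[F] V) :=
    { carrier := {f | (∀ g x, f (ρ g x) = ρ g (f x)) ∧ ∀ x, f (π x) = f x}
      add_mem' := fun {a b} ha hb => ⟨fun g x => by simp [ha.1, hb.1], fun x => by simp [ha.2, hb.2]⟩
      zero_mem' := ⟨fun g x => by simp, fun x => by simp⟩
      smul_mem' := fun c a ha => ⟨fun g x => by simp [ha.1], fun x => by simp [ha.2]⟩ }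
  let ψ : P →ₗ[F] P := ((LinearMap.llcomp F V V V T).comp P.subtype).codRestrict P (fun f =>
    ⟨fun g x => by simp [f.2.1, hT], fun x => by simp [f.2.2]⟩)
  have hψ : ∀ f : P, ∀ x, (ψ f : V →ₗ[F] V) x = T ((f : V →ₗ[F] V) x) := fun f x => rfl
  have hsurj : Function.Surjective ψ := by
    intro f
    refine ⟨⟨s ∘ₗ (f : V →ₗ[F] V), fun g x => by simp [f.2.1, hs], fun x => by simp [f.2.2]⟩, ?_⟩
    ext x
    rw [hψ]
    obtain ⟨y, hy⟩ := h f f.2.1 (π x) (hπ1 x)
    simp only [LinearMap.comp_apply]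
    rw [← f.2.2 x, ← hy, hs']
  have hinj : Function.Injective ψ := LinearMap.injective_iff_surjective.2 hsurj
  have hmem : π ∈ P := ⟨hπ, fun x => hπ2 _ (hπ1 x)⟩
  have : (⟨π, hmem⟩ : P) = 0 := by
    apply hinj
    rw [map_zero]
    ext x
    rw [hψ]
    exact hπ1 x
  intro x hx
  have h2 := LinearMap.congr_fun (congrArg Subtype.val this) x
  rw [← hπ2 x hx]
  exact h2

end

theorem sd_rad {F : Type*} [Field F] {V : Type*} [AddCommGroup V] [Module F V]
    [FiniteDimensional F V] (D C : LinearMap.BilinForm F V) (π : V →ₗ[F] V)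
    (hD : ∀ x ∈ LinearMap.ker D, ∀ y, D y x = 0) (h1 : ∀ x, π x ∈ LinearMap.ker D)
    (h2 : ∀ x ∈ LinearMap.ker D, π x = x)
    (hle : Module.finrank F (LinearMap.ker D) ≤
      Module.finrank F (LinearMap.ker (D + C.comp π π))) : ∀ x y, C (π x) (π y) = 0 := by
  have hle' : LinearMap.ker (D + C.comp π π) ≤ LinearMap.ker D := by
    intro x hx
    rw [LinearMap.mem_ker] at hx ⊢
    ext y
    have := LinearMap.congr_fun hx (y - π y)
    simp only [LinearMap.add_apply, LinearMap.BilinForm.comp_apply, map_sub, h2 _ (h1 y), sub_self,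
      map_zero, add_zero, hD _ (h1 y), sub_zero, LinearMap.zero_apply] at this ⊢
    linear_combination this
  have heq := Submodule.eq_of_le_of_finrank_le hle' hle
  intro x y
  have h3 : π x ∈ LinearMap.ker (D + C.comp π π) := heq ▸ h1 x
  have h4 := LinearMap.congr_fun (LinearMap.mem_ker.1 h3) y
  have h5 := LinearMap.congr_fun (LinearMap.mem_ker.1 (h1 x)) y
  simp only [LinearMap.add_apply, LinearMap.BilinForm.comp_apply, h2 _ (h1 x), h5,
    LinearMap.zero_apply, zero_add] at h4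
  exact h4

theorem sd_split {F : Type*} [Field F] {G : Type*} [Group G] [Fintype G] {V : Type*}
    [AddCommGroup V] [Module F V] [FiniteDimensional F V] (ρ : Representation F G V)
    (hc : (Fintype.card G : F) ≠ 0) (B : LinearMap.BilinForm F V) (hB : B.Nondegenerate)
    (hBinv : ∀ g : G, ∀ x y : V, B (ρ g x) (ρ g y) = B x y) :
    ∃ (A S : LinearMap.BilinForm F V) (π : V →ₗ[F] V), (∀ g x, π (ρ g x) = ρ g (π x)) ∧
      (∀ x, π x ∈ LinearMap.ker A) ∧ (∀ x ∈ LinearMap.ker A, π x = x) ∧ (∀ x, A x x = 0) ∧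
      (∀ g x y, A (ρ g x) (ρ g y) = A x y) ∧ (∀ g x y, S (ρ g x) (ρ g y) = S x y) ∧
      (∀ x y, S x y = S y x) ∧ (∀ x ∈ LinearMap.ker A, (∀ y ∈ LinearMap.ker A, S x y = 0) → x = 0) ∧
      ∀ C : LinearMap.BilinForm F V, (∀ g x y, C (ρ g x) (ρ g y) = C x y) → (∀ x, C x x = 0) →
        ∀ x y, C (π x) (π y) = 0 := by
  have hkerinv : ∀ D : LinearMap.BilinForm F V, (∀ g x y, D (ρ g x) (ρ g y) = D x y) →
      ∀ g, ∀ x ∈ LinearMap.ker D, ρ g x ∈ LinearMap.ker D := by
    intro D hD g x hx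
    rw [LinearMap.mem_ker] at hx ⊢
    ext y
    have := hD g x (ρ g⁻¹ y)
    rw [Representation.self_inv_apply, hx] at this
    exact this
  obtain ⟨A, ⟨hA, hAi⟩, hAmin⟩ := (measure (fun A : LinearMap.BilinForm F V =>
    Module.finrank F (LinearMap.ker A))).wf.has_min
    {A | (∀ x, A x x = 0) ∧ ∀ g x y, A (ρ g x) (ρ g y) = A x y} ⟨0, by simp⟩
  have hAneg : ∀ x y, A x y = - A y x := fun x y => (LinearMap.IsAlt.neg hA y x).symm
  have hAk : ∀ x ∈ LinearMap.ker A, ∀ y, A x y = 0 := fun x hx y => by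
    rw [LinearMap.mem_ker.1 hx]; rfl
  have hAk' : ∀ x ∈ LinearMap.ker A, ∀ y, A y x = 0 := fun x hx y => by
    rw [hAneg, hAk x hx, neg_zero]
  obtain ⟨π, hπ, hπ1, hπ2⟩ := sd_proj ρ hc _ (hkerinv A hAi)
  have hP : ∀ C : LinearMap.BilinForm F V, (∀ g x y, C (ρ g x) (ρ g y) = C x y) → (∀ x, C x x = 0) →
        ∀ x y, C (π x) (π y) = 0 := by
    intro C hCi hC
    refine sd_rad A C π hAk' hπ1 hπ2 (not_lt.1 (hAmin (A + C.comp π π) ⟨fun x => ?_, fun g x y => ?_⟩))
    · simp [hA, hC]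
    · simp [hAi, hCi, hπ]
  obtain ⟨S, ⟨hS, hSi⟩, hSmin⟩ := (measure (fun S : LinearMap.BilinForm F V =>
    Module.finrank F (LinearMap.ker (A + S)))).wf.has_min
    {S | (∀ x y, S (π x) (π y) = S x y) ∧ ∀ g x y, S (ρ g x) (ρ g y) = S x y} ⟨0, by simp⟩
  have hSs : ∀ x y, S x y = S y x := by
    intro x y
    have := hP (S - S.flip) (fun g x y => by simp [hSi]) (fun x => by simp) x y
    simp only [LinearMap.sub_apply, LinearMap.BilinForm.flip_apply, hS] at this
    exact sub_eq_zero.1 this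
  have hS2 : ∀ x y, S x (π y) = S x y := fun x y => by
    rw [← hS, hπ2 _ (hπ1 y), hS]
  have hL : ∀ x, x ∈ LinearMap.ker (A + S) ↔ (∀ y, A x y = 0) ∧ ∀ y, S x y = 0 := by
    intro x
    constructor
    · intro hx
      have h0 : ∀ y, A x y + S x y = 0 := fun y => LinearMap.congr_fun (LinearMap.mem_ker.1 hx) y
      have h1 : ∀ y, S x y = 0 := fun y => by
        have := h0 (π y)
        rwa [hAk' _ (hπ1 y), zero_add, hS2] at this
      exact ⟨fun y => by simpa [h1] using h0 y, h1⟩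
    · rintro ⟨h1, h2⟩
      rw [LinearMap.mem_ker]
      ext y
      simp [h1, h2]
  have hL' : ∀ y, (∀ x, (A + S) x y = 0) → y ∈ LinearMap.ker (A + S) := by
    intro y hy
    have h1 : ∀ x, S y x = 0 := fun x => by
      have := hy (π x)
      rwa [LinearMap.add_apply, LinearMap.add_apply, hAk _ (hπ1 x), zero_add, hSs, hS2] at this
    refine (hL y).2 ⟨fun x => ?_, h1⟩
    have := hy x
    rw [LinearMap.add_apply, LinearMap.add_apply, hSs, h1, add_zero] at this
    rw [hAneg, this, neg_zero]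
  have hDi : ∀ g x y, (A + S) (ρ g x) (ρ g y) = (A + S) x y := fun g x y => by simp [hAi, hSi]
  obtain ⟨τ, hτ, hτ1, hτ2⟩ := sd_proj ρ hc _ (hkerinv (A + S) hDi)
  have hQ : ∀ C : LinearMap.BilinForm F V, (∀ g x y, C (ρ g x) (ρ g y) = C x y) →
      ∀ x ∈ LinearMap.ker (A + S), ∀ y ∈ LinearMap.ker (A + S), C x y = 0 := by
    intro C hCi x hx y hy
    have hfix : ∀ z ∈ LinearMap.ker (A + S), (τ ∘ₗ π) z = z := fun z hz => by
      rw [LinearMap.comp_apply, hπ2 z (LinearMap.mem_ker.2 (LinearMap.ext ((hL z).1 hz).1)), hτ2 z hz]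
    have := sd_rad (A + S) C (τ ∘ₗ π) (fun x hx y => by
        rw [LinearMap.add_apply, LinearMap.add_apply, hAneg, hSs, ((hL x).1 hx).1, ((hL x).1 hx).2]
        simp) (fun x => hτ1 _) hfix (by
        rw [add_assoc]
        refine not_lt.1 (hSmin _ ⟨fun x y => ?_, fun g x y => ?_⟩)
        · simp [hS, hπ2 _ (hπ1 _)]
        · simp [hSi, hCi, hπ, hτ]) x y
    rwa [hfix x hx, hfix y hy] at this
  let T := LinearMap.BilinForm.symmCompOfNondegenerate (A + S) B hB
  have hTB : ∀ x y, B (T x) y = (A + S) x y := fun x y =>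
    LinearMap.BilinForm.symmCompOfNondegenerate_left_apply _ _ _ _
  have hT : ∀ g x, T (ρ g x) = ρ g (T x) := by
    intro g x
    rw [← sub_eq_zero]
    refine hB.1 _ (fun y => ?_)
    rw [map_sub, LinearMap.sub_apply, hTB, ← Representation.self_inv_apply ρ g y, hDi, hBinv, hTB,
      sub_self]
  have hT0 : ∀ x, T x = 0 ↔ x ∈ LinearMap.ker (A + S) := by
    intro x
    constructor
    · intro h
      rw [LinearMap.mem_ker]
      ext y
      rw [← hTB, h]; simp
    · intro h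
      refine hB.1 _ (fun y => ?_)
      rw [hTB, LinearMap.mem_ker.1 h]; rfl
  have hker := sd_ker ρ hc T hT (fun f hf x hx => by
    by_contra hn
    obtain ⟨l, hl, hl'⟩ := Submodule.exists_dual_map_eq_bot_of_notMem hn inferInstance
    obtain ⟨y, rfl⟩ := (B.flip.toDual hB.flip).surjective l
    apply hl
    rw [LinearMap.BilinForm.toDual_def]
    refine hQ (B.compLeft f) (fun g x y => by simp [hf, hBinv]) x ((hT0 x).1 hx) y (hL' y (fun z => ?_))
    rw [← hTB]
    have : (B.flip.toDual hB.flip y) (T z) ∈ (⊥ : Submodule F F) := by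
      rw [← hl']; exact Submodule.mem_map_of_mem (LinearMap.mem_range_self T z)
    rwa [Submodule.mem_bot, LinearMap.BilinForm.toDual_def] at this)
  refine ⟨A, S, π, hπ, hπ1, hπ2, hA, hAi, hSi, hSs, fun x hx h => ?_, hP⟩
  refine hker x ((hT0 x).2 ((hL x).2 ⟨hAk x hx, fun y => ?_⟩))
  rw [← hS2]
  exact h _ (hπ1 y)

theorem sd_two {F : Type*} [Field F] [CharP F 2] {G : Type*} [Group G] [Fintype G] {V : Type*}
    [AddCommGroup V] [Module F V] (ρ : Representation F G V)
    (hc : (Fintype.card G : F) = 1) (S : LinearMap.BilinForm F V) (R : Submodule F V)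
    (hR : ∀ g, ∀ x ∈ R, ρ g x ∈ R)
    (hSi : ∀ g x y, S (ρ g x) (ρ g y) = S x y) (hSs : ∀ x y, S x y = S y x)
    (hn : ∀ x ∈ R, (∀ y ∈ R, S x y = 0) → x = 0)
    (hP : ∀ C : LinearMap.BilinForm F V, (∀ g x y, C (ρ g x) (ρ g y) = C x y) → (∀ x, C x x = 0) →
        ∀ x ∈ R, ∀ y ∈ R, C x y = 0) : ∀ g, ∀ w ∈ R, ρ g w = w := by
  let e : V →ₗ[F] V := ∑ g : G, ρ g
  have he : ∀ x, e x = ∑ g : G, ρ g x := fun x => by simp [e]
  have he1 : ∀ g x, ρ g (e x) = e x := by
    intro g x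
    rw [he, map_sum]
    refine Fintype.sum_equiv (Equiv.mulLeft g) _ _ (fun h => ?_)
    simp
  have he2 : ∀ g x, e (ρ g x) = e x := by
    intro g x
    rw [he, he]
    refine Fintype.sum_equiv (Equiv.mulRight g) _ _ (fun h => ?_)
    simp
  let q : V →+ F := AddMonoidHom.mk' (fun x => S x x) (fun x y => by
    simp only [map_add, LinearMap.add_apply]
    rw [hSs x y]
    have : S y x + S y x = 0 := CharTwo.add_self_eq_zero _
    linear_combination this)
  have hq : ∀ x, q x = S x x := fun x => rfl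
  have hqe : ∀ x, q (e x) = q x := by
    intro x
    rw [he, map_sum]
    simp only [hq, hSi, Finset.sum_const, Finset.card_univ, nsmul_eq_mul, hc, one_mul]
  have h3 : ∀ z y, S (e z) (e y) = S z (e y) := by
    intro z y
    conv_lhs => rw [he z, map_sum, LinearMap.sum_apply]
    have : ∀ g : G, S (ρ g z) (e y) = S z (e y) := fun g => by
      rw [← hSi g z, he1]
    simp only [this, Finset.sum_const, Finset.card_univ, nsmul_eq_mul, hc, one_mul]
  intro g w hw
  have hwe : w - e w = 0 := by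
    refine hn _ (R.sub_mem hw (by rw [he]; exact R.sum_mem (fun g _ => hR g w hw))) (fun y hy => ?_)
    have := hP (S.comp (LinearMap.id - e) (LinearMap.id - e)) (fun g x y => by
      simp only [LinearMap.BilinForm.comp_apply, LinearMap.sub_apply, LinearMap.id_apply, he2]
      rw [← hSi g (x - e x), map_sub (ρ g), map_sub (ρ g), he1, he1]) (fun x => by
      simp only [LinearMap.BilinForm.comp_apply, LinearMap.sub_apply, LinearMap.id_apply]
      rw [← hq, map_sub, hqe, sub_self]) w hw y hy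
    simp only [LinearMap.BilinForm.comp_apply, LinearMap.sub_apply, LinearMap.id_apply, map_sub,
      h3] at this ⊢
    linear_combination this
  rw [sub_eq_zero] at hwe
  rw [hwe, he1]

end H2
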