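import Cfsg.Agent.H2.TrR

/-! Minimal failures of transfer control. -/

set_option autoImplicit false

namespace H2
open Subgroup Cfsg Cfsg.FusionSystem H7
open scoped commutatorElement

universe u

section
variable {G : Type u} [Group G] [Finite G] {p : ℕ} [Fact p.Prime] {S X H : Subgroup G}

theorem secCl_psec (G : Type u) [Group G] [Finite G] :
    SecCl.{u} fun L _ => Involves L G ∧ Nat.card L < Nat.card G := fun L L' _ _ h h' =>
  ⟨inv_trans h h'.1, (Nat.le_of_dvd (by have := inv_finite h'.1; exact Nat.card_pos)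
    (inv_card_dvd h)).trans_lt h'.2⟩

omit [Finite G] in
theorem upto_psec {Φ : ∀ (L : Type u) [Group L], Prop}
    (h : ∀ (K R : Subgroup G) [(R.subgroupOf K).Normal], (K = ⊤ → R ≠ ⊥) →
      Φ (K ⧸ R.subgroupOf K)) :
    Upto (fun L _ => Involves L G ∧ Nat.card L < Nat.card G) Φ :=
  fun _ _ _ ⟨⟨K, R, _, ⟨e⟩⟩, h'⟩ => ⟨_, inferInstance, e.symm, h K R (by
    rintro rfl rfl
    rw [← Nat.card_congr e.toEquiv, ← index_eq_card, bot_subgroupOf, index_bot, card_top] at h'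
    exact h'.false)⟩

theorem RzS.loc_psec {Ω G' : Type u} [Group Ω] [Group G'] [Finite G'] {T : Subgroup Ω}
    {F : FusionSystem T} {ι : Ω → G'} {K : Subgroup G'} (h : RzS F p K ι) (h1 : Involves K G)
    (h2 : Nat.card K < Nat.card G) :
    Loc F p fun L _ => Involves L G ∧ Nat.card L < Nat.card G :=
  h.loc.mono fun _ _ _ k => secCl_psec G _ _ k ⟨h1, h2⟩

theorem SMor.focal_le_of_tc {Ω Ω' : Type u} [Group Ω] [Group Ω'] {S X : Subgroup Ω} [Finite S]
    {S' : Subgroup Ω'} {F : FusionSystem S} {F' : FusionSystem S'} {θ : Ω → Ω'} {I : Sort*}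
    {W : I → ∀ {G : Type u} [Group G], Subgroup G → Subgroup G} (hW : ∀ i, PF p (W i))
    (hm : SMor F F' θ) (hS : IsPGroup p S) (hk : H2.prim θ S ⊥ = F.core) (hX : ⁅S, S⁆ ≤ X)
    (k1 : F.focalSubgroup ⊓ F.core ≤ X)
    (key : ∀ U ≤ S, S ≤ nrm U → ¬ F.IsNormal U → NF F U X) (h : TC F' fun i => W i S') :
    F.focalSubgroup ≤ X := by
  have hS' := hm.fac.isPGroup hS
  have := hm.fac.finite
  refine hm.focal_le (hk ▸ k1) ?_
  by_cases hb : S' = ⊥
  · exact (H2.focal_le F').trans (hb.le.trans bot_le)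
  refine h _ ?_ fun i =>
    hm.nf ((hW i).le _) (key _ prim_le (fun s hs => hm.hom.mem_normalizer_prim hs
      ((hW i).nrm_le hS' le_normalizer (hm.maps s hs))) fun h => (hW i).ne_bot hS' hb ?_).inf
  · rw [← hm.onto, ← hm.hom.img_commutator le_rfl le_rfl]
    exact img_mono θ (le_inf hX (commutator_le_focal F))
  · rw [← hm.fac.img_prim ((hW i).le _), hm.hom.img_eq_bot_iff prim_le, hk]
    exact le_core h

theorem card_lt_of_lt_top (h : H < ⊤) : Nat.card H < Nat.card G := by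
  rw [← card_top (G := G)]; exact card_lt_of_lt h

theorem min_transfer (hS : IsSylowIn p S ⊤) {I : Sort*}
    {W : I → ∀ {G : Type u} [Group G], Subgroup G → Subgroup G} (hW : ∀ i, PF p (W i))
    (htc : ∀ {Ω : Type u} [Group Ω] {S : Subgroup Ω} [Finite S] (F : FusionSystem S),
      IsPGroup p S → F.IsSaturated p →
      Loc F p (fun L _ => Involves L G ∧ Nat.card L < Nat.card G) → TC F fun i => W i S)
    (hX : ⁅S, S⁆ ≤ X) (h0 : ∀ i, S ⊓ ⁅⊤ ⊓ nrm (W i S), ⊤ ⊓ nrm (W i S)⁆ ≤ X)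
    (hn : ¬ S ⊓ ⁅(⊤ : Subgroup G), ⊤⁆ ≤ X) :
    (∀ H, S ≤ H → H < ⊤ → S ⊓ ⁅H, H⁆ ≤ X) ∧ ChP p (⊤ : Subgroup G) ∧
      ¬ Op p ⊤ ⊓ ⁅(⊤ : Subgroup G), ⊤⁆ ≤ X := by
  have hF := isGF_group S
  have hU := fun i => And.intro ((hW i).le S) ((hW i).nrm_le hS.isPGroup (le_nrm_self S))
  have k1 : ∀ H, S ≤ H → H < ⊤ → S ⊓ ⁅H, H⁆ ≤ X := fun H h1 h2 => by
    have h3 := isGF_sub h1
    have h4 := hS.mono h1 le_top
    exact (h3.tc_iff h4 hU).1 (htc _ hS.isPGroup (h3.saturated h4) ((h3.rzS h4).loc_psec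
      (inv_subgroup H) (card_lt_of_lt_top h2))) X hX fun i => le_trans (inf_le_inf_left _
        (commutator_mono (inf_le_inf_right _ le_top) (inf_le_inf_right _ le_top))) (h0 i)
  have k0 : ¬ Loc (groupFusionSystem S) p
      (fun L _ => Involves L G ∧ Nat.card L < Nat.card G) := fun h =>
    hn ((hF.tc_iff hS hU).1 (htc _ hS.isPGroup (hF.saturated hS) h) X hX h0)
  have k2 : ChP p (⊤ : Subgroup G) := by
    by_contra hc
    by_cases hO : Op' p (⊤ : Subgroup G) = ⊥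
    · refine k0 (hF.loc' hS (secCl_psec G) fun Q h1 h2 => ⟨inv_subgroup _,
        card_lt_of_lt_top (lt_top_iff_ne_top.2 fun e => hc ?_)⟩)
      have h3 : ⊤ ≤ nrm Q := e.ge.trans inf_le_right
      refine chP_of (hS.isPGroup.to_le h1) le_top h3 ?_
      simpa [hO] using cen_le_sup_of_centric hS h1 h3 h2
    · have h1 : (⊤ : Subgroup G) ≤ nrm (Op' p ⊤) := le_nrm_Opi _ _
      refine k0 (((hF.rzS hS).im h1 (coprime_kr_qm p ⊤)).loc_psec
        (inv_trans (inv_im _ h1) (inv_subgroup _)) ?_)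
      rw [← card_top (G := G)]
      exact card_im_lt h1 (by rwa [kr_qm, top_inf_eq])
  refine ⟨k1, k2, fun k3 => hn ?_⟩
  have hc := hF.core_eq hS k2
  by_cases hb : Op p (⊤ : Subgroup G) = ⊥
  · have : (⊤ : Subgroup G) ⊓ cen (Op p ⊤) ≤ Op p ⊤ := k2
    rw [hb, cen_bot, top_inf_eq] at this
    exact inf_le_left.trans (le_top.trans (this.trans bot_le))
  have := normal_iff_top_le_nrm.2 (le_nrm_Opi {p} (⊤ : Subgroup G))
  have hθ := homOn_hom (QuotientGroup.mk' (Op p (⊤ : Subgroup G))) ⊤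
  have e : img (QuotientGroup.mk' (Op p (⊤ : Subgroup G))) ⊤ = ⊤ := by
    rw [img_hom, map_top_of_surjective _ (QuotientGroup.mk'_surjective _)]
  have hF' := isGF_group (img (QuotientGroup.mk' (Op p (⊤ : Subgroup G))) S)
  have hm := hF.smor hS hθ (e.symm ▸ hF') rfl
  have hS' : IsSylowIn p (img (QuotientGroup.mk' (Op p (⊤ : Subgroup G))) S) ⊤ := by
    rw [← e, img_hom, img_hom]; exact hS.map _
  rw [← hF.focal_eq hS]
  refine hm.focal_le_of_tc hW hS.isPGroup ?_ hX ?_ (fun U h1 h2 h3 => ?_)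
    (htc _ hS'.isPGroup (hF'.saturated hS') ((hF'.rzS hS').loc_psec
      (inv_trans (inv_subgroup _) (inv_of_surj _ (QuotientGroup.mk'_surjective _))) ?_))
  · rw [hc]
    ext x
    rw [(hθ.mono le_top).mem_prim]
    simpa using fun h => core_le _ (hc.ge h)
  · rw [hc, hF.focal_eq hS]
    exact le_trans (le_inf inf_le_right (inf_le_left.trans inf_le_right)) k3
  · obtain ⟨D, hD⟩ := exists_nrmSystem (groupFusionSystem S) h1 h2
    rw [hD.nf_iff, (hF.isNK_top h1 hD).focal_eq (hS.mono (le_inf le_top h2) le_top)]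
    exact k1 _ (le_inf le_top h2) (lt_top_iff_ne_top.2 fun e => h3 (hF.normal h1
      (e.ge.trans inf_le_right)))
  · rw [card_top, ← index_eq_card, ← index_mul_card (Op p (⊤ : Subgroup G))]
    have h3 := (one_lt_card_iff_ne_bot _).2 hb
    have := Nat.pos_of_ne_zero (index_ne_zero_of_finite (H := Op p (⊤ : Subgroup G)))
    nlinarith

end

end H2
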