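import Cfsg.Agent.H2.XO1

/-! The real Clifford group: extensions `2^{1+2n}.K` for `K` a group of isometries. -/

set_option autoImplicit false

namespace H2.XO

open Cfsg Matrix

local notation "F" => ZMod 2

variable {ι : Type} [Fintype ι] [DecidableEq ι] {B : (ι → F) →ₗ[F] (ι → F) →ₗ[F] F}

noncomputable def cr (a : F) : ℝ := chi a
theorem cr_add (a b : F) : cr (a + b) = cr a * cr b := by simp [cr, chi_add]
@[simp] theorem cr_zero : cr 0 = 1 := by simp [cr, chi]
theorem cr_one : cr 1 = -1 := by simp [cr, chi]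
theorem cr_sq (a : F) : cr a * cr a = 1 := by
  rw [← cr_add, CharTwo.add_self_eq_zero, cr_zero]
theorem cr_inj {a b : F} (h : cr a = cr b) : a = b := by
  have : chi a = chi b := by simpa [cr] using h
  clear h
  revert a b; decide

/-- left multiplication in the twisted group algebra -/
noncomputable def LL : EB B →* Matrix (ι → F) (ι → F) ℝ where
  toFun x := of fun w' w => if w' = x.v + w then cr (x.a + B x.v w) else 0
  map_one' := by ext w' w; simp [one_apply]
  map_mul' x y := by
    ext w' w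
    simp only [mul_apply, of_apply, mul_ite, mul_zero, Finset.sum_ite_eq', Finset.mem_univ, if_true,
      mul_v, mul_a, add_assoc, ite_mul, zero_mul, ← cr_add, map_add, LinearMap.add_apply]
    congr 2; ring

theorem LL_apply (x : EB B) (w' w) :
    LL x w' w = if w' = x.v + w then cr (x.a + B x.v w) else 0 := rfl

variable (B) in
/-- right multiplication in the twisted group algebra -/
noncomputable def RR (y : ι → F) : Matrix (ι → F) (ι → F) ℝ :=
  of fun w' w => if w' = w + y then cr (B w y) else 0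

theorem LL_RR (x : EB B) (y : ι → F) : LL x * RR B y = RR B y * LL x := by
  ext w' w
  simp only [mul_apply, RR, LL_apply, of_apply, mul_ite, mul_zero, Finset.sum_ite_eq',
    Finset.mem_univ, if_true, add_assoc, ite_mul, zero_mul, ← cr_add, map_add, LinearMap.add_apply]
  congr 2; ring

theorem LL_T (x : EB B) : (LL x)ᵀ = LL x⁻¹ := by
  ext w' w
  simp only [transpose_apply, LL_apply, inv_v, inv_a, vneg, CharTwo.neg_eq]
  by_cases h : w = x.v + w'
  · subst h
    rw [if_pos rfl, if_pos (by rw [← add_assoc, vadd, zero_add]), map_add]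
    congr 1; linear_combination -(B x.v x.v) * h2
  · rw [if_neg h, if_neg]
    rintro rfl
    exact h (by rw [← add_assoc, vadd, zero_add])

theorem RR_T (y : ι → F) : (RR B y)ᵀ = cr (B y y) • RR B y := by
  ext w' w
  simp only [transpose_apply, RR, of_apply, Matrix.smul_apply, smul_eq_mul]
  by_cases h : w = w' + y
  · subst h
    rw [if_pos rfl, if_pos (by rw [add_assoc, vadd, add_zero]), ← cr_add, map_add,
      LinearMap.add_apply]
    congr 1; linear_combination -(B y y) * h2
  · rw [if_neg h, if_neg, mul_zero]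
    rintro rfl
    exact h (by rw [add_assoc, vadd, add_zero])

theorem LL_inj : Function.Injective (LL : EB B → _) := by
  rw [injective_iff_map_eq_one]
  intro x hx
  have h1 := congrFun (congrFun hx x.v) 0
  simp only [LL_apply, add_zero, if_true, map_zero, one_apply] at h1
  split_ifs at h1 with h
  · exact EB.ext h (cr_inj (h1.trans cr_zero.symm))
  · have := cr_sq x.a
    rw [h1] at this; simp at this

theorem LL_zz : LL (zz : EB B) = -1 := by
  ext w' w
  simp only [LL_apply, zz, zero_add, map_zero, LinearMap.zero_apply, add_zero, cr_one, Matrix.neg_apply,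
    Matrix.one_apply]
  split_ifs <;> simp

theorem scalar (h : ND B) {M : Matrix (ι → F) (ι → F) ℝ} (h1 : ∀ x : EB B, LL x * M = M * LL x)
    (h3 : ∀ y, M * RR B y = RR B y * M) : M = M 0 0 • 1 := by
  have a1 : ∀ w' y, M w' y = cr (B y (w' + y)) * M (w' + y) 0 := fun w' y => by
    have := congrFun (congrFun (h1 ⟨y, 0⟩) w') 0
    simp only [mul_apply, LL_apply, mul_ite, mul_zero, ite_mul, zero_mul, add_zero, zero_add,
      Finset.sum_ite_eq', Finset.mem_univ, if_true, map_zero, cr_zero, mul_one] at this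
    rw [← this, Finset.sum_eq_single (w' + y), if_pos (by rw [add_left_comm, vadd, add_zero])]
    · intro b _ hb
      rw [if_neg]
      rintro rfl
      exact hb (by rw [add_comm y, add_assoc, vadd, add_zero])
    · simp
  have a2 : ∀ w' y, M w' y = cr (B (w' + y) y) * M (w' + y) 0 := fun w' y => by
    have := congrFun (congrFun (h3 y) w') 0
    simp only [mul_apply, RR, of_apply, mul_ite, mul_zero, ite_mul, zero_mul, zero_add,
      Finset.sum_ite_eq', Finset.mem_univ, if_true, map_zero, LinearMap.zero_apply, cr_zero,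
      mul_one] at this
    rw [this, Finset.sum_eq_single (w' + y), if_pos (by rw [add_assoc, vadd, add_zero])]
    · intro b _ hb
      rw [if_neg]
      rintro rfl
      exact hb (by rw [add_assoc, vadd, add_zero])
    · simp
  have a3 : ∀ v, v ≠ 0 → M v 0 = 0 := fun v hv => by
    by_contra hne
    refine hv (h v fun y => ?_)
    have b1 := a1 (v + y) y
    have b2 := a2 (v + y) y
    rw [add_assoc, vadd, add_zero] at b1 b2
    exact cr_inj (mul_right_cancel₀ hne (b2.symm.trans b1))
  ext w' w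
  by_cases e : w' = w
  · subst e
    rw [a1, vadd]; simp
  · rw [a1, a3, Matrix.smul_apply, one_apply_ne e, mul_zero, smul_zero]
    intro e'
    exact e (by rw [add_eq_zero_iff_eq_neg, vneg] at e'; exact e')

theorem sum_cr (h : ND B) {v : ι → F} (hv : v ≠ 0) : ∑ w, cr (B v w + B w v) = 0 := by
  obtain ⟨y, hy⟩ : ∃ y, B v y + B y v = 1 := by
    by_contra hn
    refine hv (h v fun w => ?_)
    have h1 : B v w + B w v ≠ 1 := fun e => hn ⟨w, e⟩
    generalize B v w = a at h1
    generalize B w v = b at h1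
    revert a b; decide
  have := Equiv.sum_comp (Equiv.addRight y) fun w => cr (B v w + B w v)
  have e : ∀ w, cr (B v (w + y) + B (w + y) v) = -cr (B v w + B w v) := fun w => by
    rw [← mul_neg_one, ← cr_one, ← cr_add, ← hy, map_add, map_add, LinearMap.add_apply]
    congr 1; ring
  simp only [Equiv.coe_addRight, e, Finset.sum_neg_distrib] at this
  linarith

theorem exists_orth (h : ND B) (φ : MulAut (EB B)) : ∃ u : Matrix (ι → F) (ι → F) ℝ,
    uᵀ * u = 1 ∧ (∀ y, u * RR B y = RR B y * u) ∧ ∀ x, LL (φ x) * u = u * LL x := by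
  letI : Fintype (EB B) := Fintype.ofFinite _
  let U : (ι → F) → Matrix (ι → F) (ι → F) ℝ := fun w => ∑ x : EB B, LL (φ x * ⟨w, 0⟩ * x⁻¹)
  have hR : ∀ w y, U w * RR B y = RR B y * U w := fun w y => by
    simp only [U, Finset.sum_mul, Finset.mul_sum, LL_RR]
  have hL : ∀ w x, LL (φ x) * U w = U w * LL x := fun w x => by
    simp only [U, Finset.sum_mul, Finset.mul_sum, ← map_mul]
    rw [← Equiv.sum_comp (Equiv.mulLeft x) fun y => LL (φ y * (⟨w, 0⟩ : EB B) * y⁻¹ * x)]
    refine Finset.sum_congr rfl fun y _ => ?_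
    simp [mul_assoc]
  have htr : 0 < ∑ w, U w w 0 := by
    simp only [U, Matrix.sum_apply]
    rw [Finset.sum_comm]
    have key : ∀ x : EB B, ∑ w, LL (φ x * ⟨w, 0⟩ * x⁻¹) w 0 =
        if x.v = 0 then (Fintype.card (ι → F) : ℝ) else 0 := fun x => by
      by_cases e : (φ x).v = x.v
      · have : ∀ w, LL (φ x * ⟨w, 0⟩ * x⁻¹) w 0 =
            cr ((φ x).a + x.a) * cr (B x.v w + B w x.v) := fun w => by
          rw [LL_apply, if_pos (by simp [e]), ← cr_add]
          congr 1
          simp only [mul_a, mul_v, inv_a, inv_v, e, vneg, CharTwo.neg_eq, map_add, map_zero,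
            LinearMap.add_apply]
          linear_combination (B x.v x.v) * h2
        simp only [this, ← Finset.mul_sum]
        split_ifs with e0
        · have : x = ⟨0, x.a⟩ := EB.ext e0 rfl
          rw [this, aut_cen h]; simp [CharTwo.add_self_eq_zero]
        · rw [sum_cr h e0, mul_zero]
      · rw [Finset.sum_eq_zero, if_neg]
        · intro e0
          have : x = ⟨0, x.a⟩ := EB.ext e0 rfl
          exact e (by rw [this, aut_cen h])
        · intro w _
          rw [LL_apply, if_neg]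
          intro e1
          apply e
          simp only [mul_v, inv_v, add_zero] at e1
          linear_combination -e1
    simp only [key]
    refine Finset.sum_pos' (fun x _ => by split_ifs <;> positivity) ⟨1, Finset.mem_univ _, ?_⟩
    simp
  obtain ⟨w, hw⟩ : ∃ w, U w w 0 ≠ 0 := by
    by_contra hn
    push Not at hn
    simp [hn] at htr
  have hs : (U w)ᵀ * U w = ((U w)ᵀ * U w) 0 0 • 1 := by
    refine scalar h (fun x => ?_) fun y => ?_
    · have := congrArg transpose (hL w x⁻¹)
      rw [transpose_mul, transpose_mul, LL_T, LL_T, inv_inv, map_inv φ, inv_inv] at this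
      rw [← mul_assoc, ← this, mul_assoc, hL, mul_assoc]
    · have := congrArg transpose (hR w y)
      rw [transpose_mul, transpose_mul, RR_T, smul_mul_assoc, mul_smul_comm] at this
      have h4 := smul_right_injective _ (left_ne_zero_of_mul_eq_one (cr_sq (B y y))) this
      rw [mul_assoc, hR, ← mul_assoc, ← h4, mul_assoc]
  set c := ((U w)ᵀ * U w) 0 0 with hc
  have hpos : 0 < c := by
    rw [hc, mul_apply]
    exact Finset.sum_pos' (fun v _ => mul_self_nonneg _) ⟨w, Finset.mem_univ _, mul_self_pos.2 hw⟩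
  refine ⟨(√c)⁻¹ • U w, ?_, fun y => ?_, fun x => ?_⟩
  · rw [transpose_smul, smul_mul_assoc, mul_smul_comm, hs, smul_smul, smul_smul, ← mul_inv,
      Real.mul_self_sqrt hpos.le, inv_mul_cancel₀ hpos.ne', one_smul]
  · rw [smul_mul_assoc, mul_smul_comm, hR]
  · rw [smul_mul_assoc, mul_smul_comm, hL]

variable (B) in
/-- the Clifford group, cut down to a subgroup `S` of automorphisms -/
def CG (S : Subgroup (MulAut (EB B))) :
    Subgroup ((Matrix (ι → F) (ι → F) ℝ)ˣ × MulAut (EB B)) where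
  carrier := {p | p.1.valᵀ * p.1.val = 1 ∧ (∀ y, p.1.val * RR B y = RR B y * p.1.val) ∧
    (∀ x, LL (p.2 x) * p.1.val = p.1.val * LL x) ∧ p.2 ∈ S}
  one_mem' := ⟨by simp, by simp, by simp, S.one_mem⟩
  mul_mem' := by
    rintro p q ⟨a1, a2, a3, a4⟩ ⟨b1, b2, b3, b4⟩
    refine ⟨?_, fun y => ?_, fun x => ?_, S.mul_mem a4 b4⟩
    · simp only [Prod.fst_mul, Units.val_mul, transpose_mul]
      rw [mul_assoc, ← mul_assoc _ p.1.val, a1, one_mul, b1]
    · simp only [Prod.fst_mul, Units.val_mul]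
      rw [mul_assoc, b2, ← mul_assoc, a2, mul_assoc]
    · simp only [Prod.fst_mul, Prod.snd_mul, Units.val_mul, MulAut.mul_apply]
      rw [← mul_assoc, a3, mul_assoc, b3, mul_assoc]
  inv_mem' := by
    rintro p ⟨a1, a2, a3, a4⟩
    refine ⟨?_, fun y => ?_, fun x => ?_, S.inv_mem a4⟩
    · have e : (p.1⁻¹).val = p.1.valᵀ :=
        Units.inv_eq_of_mul_eq_one_left a1
      simp only [Prod.fst_inv]
      conv_lhs => rw [e, transpose_transpose, ← e]
      exact Units.mul_inv _
    · simp only [Prod.fst_inv]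
      rw [Units.inv_mul_eq_iff_eq_mul, ← mul_assoc, a2, Units.mul_inv_cancel_right]
    · simp only [Prod.fst_inv, Prod.snd_inv]
      rw [eq_comm, Units.inv_mul_eq_iff_eq_mul, ← mul_assoc, ← a3, Units.mul_inv_cancel_right]
      simp

/-- the extraspecial group inside the Clifford group -/
noncomputable def emb (S : Subgroup (MulAut (EB B))) (hS : Inn (EB B) ≤ S) : EB B →* CG B S :=
  ((LL (B := B)).toHomUnits.prod MulAut.conj).codRestrict _ fun x =>
    ⟨by simp [LL_T, ← map_mul], fun y => LL_RR x y, fun y => by simp [← map_mul], hS ⟨x, rfl⟩⟩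

@[simp] theorem emb_1 (S : Subgroup (MulAut (EB B))) (hS : Inn (EB B) ≤ S) (x : EB B) :
    (emb S hS x).1.1.val = LL x := rfl
@[simp] theorem emb_2 (S : Subgroup (MulAut (EB B))) (hS : Inn (EB B) ≤ S) (x : EB B) :
    (emb S hS x).1.2 = MulAut.conj x := rfl

theorem emb_inj (S : Subgroup (MulAut (EB B))) (hS : Inn (EB B) ≤ S) :
    Function.Injective (emb S hS) := fun _ _ e =>
  LL_inj (congrArg (fun p : CG B S => (p.1.1 : Matrix (ι → F) (ι → F) ℝ)) e)

theorem emb_conj (S : Subgroup (MulAut (EB B))) (hS : Inn (EB B) ≤ S) (r : CG B S) (x : EB B) :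
    r * emb S hS x * r⁻¹ = emb S hS (r.1.2 x) := by
  rw [mul_inv_eq_iff_eq_mul]
  refine Subtype.ext (Prod.ext (Units.ext (r.2.2.2.1 x).symm) (MulEquiv.ext fun y => ?_))
  simp

theorem mem_range_emb (h : ND B) (S : Subgroup (MulAut (EB B))) (hS : Inn (EB B) ≤ S) (r : CG B S)
    (hr : r.1.2 ∈ Inn (EB B)) : r ∈ (emb S hS).range := by
  obtain ⟨x, hx⟩ := hr
  set s := r * (emb S hS x)⁻¹ with hs
  have h2' : s.1.2 = 1 := by simp [hs, hx]
  have h1 := scalar h (M := s.1.1) (fun y => by simpa [h2'] using s.2.2.2.1 y) s.2.2.1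
  have h3 := s.2.1
  set c := (s.1.1 : Matrix (ι → F) (ι → F) ℝ) 0 0
  have h4 : c * c = 1 := by
    rw [h1] at h3
    simpa using congrFun (congrFun h3 0) 0
  have h5 : s ∈ (emb S hS).range := by
    rcases mul_self_eq_one_iff.1 h4 with e | e
    · refine ⟨1, ?_⟩
      rw [map_one]
      exact Subtype.ext (Prod.ext (Units.ext (by rw [h1, e]; simp)) h2'.symm)
    · refine ⟨zz, Subtype.ext (Prod.ext (Units.ext ?_) ?_)⟩
      · rw [h1, e]; simp [LL_zz]
      · rw [h2']
        refine MulEquiv.ext fun y => ?_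
        simp [← zz_comm]
  have : r = s * emb S hS x := by simp [hs]
  rw [this]
  exact Subgroup.mul_mem _ h5 ⟨x, rfl⟩

theorem exists_ext {K : Type*} [Group K] {U : Type*} [AddCommGroup U] [Module F U]
    [Module.Finite F U] (n : ℕ) (hn1 : 1 ≤ n) (hn : Module.finrank F U = 2 * n)
    (ρ : Representation F K U) (hρ : Function.Injective ρ) (q : QuadraticForm F U)
    (hq : ∀ (k : K) (u : U), q (ρ k u) = q u) (hnd : (QuadraticMap.polarBilin q).Nondegenerate) :
    ∃ (R : Type) (_ : Group R) (_ : Finite R) (Q : Subgroup R) (hN : Q.Normal) (e : R ⧸ Q ≃* K)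
      (χ : ↥Q →* Multiplicative U), IsExtraspecial 2 ↥Q ∧ Nat.card ↥Q = 2 ^ (2 * n + 1) ∧
      Function.Surjective χ ∧ χ.ker = Subgroup.center ↥Q ∧
      (∀ (r : R) (a : ↥Q), χ ⟨r * a * r⁻¹, hN.conj_mem (a : R) a.2 r⟩ =
        Multiplicative.ofAdd (ρ (e (r : R ⧸ Q)) (Multiplicative.toAdd (χ a)))) ∧
      ∀ a : ↥Q, a * a = 1 ↔ q (Multiplicative.toAdd (χ a)) = 0 := by
  have bm := Module.finBasisOfFinrankEq F U hn
  have b : (Fin (2 * n) → F) ≃ₗ[F] U := bm.equivFun.symm
  obtain ⟨B, hB⟩ : ∃ B : (Fin (2 * n) → F) →ₗ[F] (Fin (2 * n) → F) →ₗ[F] F,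
      ∀ v, B v v = q (b v) := ⟨(q.toBilin bm).compl₁₂ b.toLinearMap b.toLinearMap, fun v => by
    conv_rhs => rw [← q.toQuadraticMap_toBilin bm]
    rfl⟩
  have h : ND B := fun v hv => by
    refine b.map_eq_zero_iff.1 (hnd.1 _ fun y => ?_)
    obtain ⟨w, rfl⟩ := b.surjective y
    rw [QuadraticMap.polarBilin_apply_apply, QuadraticMap.polar, ← map_add, ← hB, ← hB, ← hB]
    simp only [map_add, LinearMap.add_apply, hv w]
    linear_combination (B w v) * h2
  obtain ⟨S, mS⟩ : ∃ S : Subgroup (MulAut (EB B)), ∀ φ, φ ∈ S ↔ ∃ k, ∀ x, b (φ x).v = ρ k (b x.v) :=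
   ⟨{ carrier := {φ | ∃ k, ∀ x, b (φ x).v = ρ k (b x.v)}
      one_mem' := ⟨1, fun x => by simp⟩
      mul_mem' := by
        rintro φ ψ ⟨k, hk⟩ ⟨l, hl⟩
        exact ⟨k * l, fun x => by rw [MulAut.mul_apply, hk, hl, map_mul]; rfl⟩
      inv_mem' := by
        rintro φ ⟨k, hk⟩
        refine ⟨k⁻¹, fun x => ?_⟩
        have := hk (φ⁻¹ x)
        rw [MulAut.apply_inv_self] at this
        rw [this, ← Module.End.mul_apply, ← map_mul, inv_mul_cancel, map_one]; rfl }, fun _ => Iff.rfl⟩
  have hS : Inn (EB B) ≤ S := by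
    rintro _ ⟨x, rfl⟩
    exact (mS _).2 ⟨1, fun y => by simp⟩
  have uniq : ∀ k l : K, (∀ x : EB B, ρ k (b x.v) = ρ l (b x.v)) → k = l := fun k l e =>
    hρ (LinearMap.ext fun u => by simpa using e ⟨b.symm u, 0⟩)
  obtain ⟨κ, spec'⟩ : ∃ κ : CG B S →* K, ∀ (r : CG B S) x, b (r.1.2 x).v = ρ (κ r) (b x.v) := by
    choose f hf using fun r : CG B S => (mS r.1.2).1 r.2.2.2.2
    exact ⟨MonoidHom.mk' f fun r s => uniq _ _ fun x => by
      rw [← hf, map_mul, Module.End.mul_apply, ← hf, ← hf]; rfl, hf⟩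
  have hsurj : Function.Surjective κ := fun k => by
    let T : Module.End F (Fin (2 * n) → F) →* Matrix (Fin (2 * n)) (Fin (2 * n)) F :=
      (LinearMap.toMatrixAlgEquiv' (R := F) (n := Fin (2 * n))).toMulEquiv.toMonoidHom
    let ρ' : K →* Module.End F (Fin (2 * n) → F) :=
      (b.symm.conjAlgEquiv F).toMulEquiv.toMonoidHom.comp ρ
    have hg : ∀ v, (((T.comp ρ').toHomUnits k : GL _ F) : Matrix _ _ F) *ᵥ v = b.symm (ρ k (b v)) :=
      fun v => LinearMap.toMatrix'_mulVec (ρ' k) v
    obtain ⟨φ, hφ⟩ := glH_surj h ((T.comp ρ').toHomUnits k) fun u _ => by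
      simp only [Units.coeHom_apply, hg, hB, LinearEquiv.apply_symm_apply, hq]
    have hk : ∀ x, b (φ x).v = ρ k (b x.v) := fun x => by
      rw [← glH_mulVec h, hφ, hg, LinearEquiv.apply_symm_apply]
    obtain ⟨u, u1, u2, u3⟩ := exists_orth h φ
    refine ⟨⟨(⟨u, uᵀ, mul_eq_one_comm.1 u1, u1⟩, φ), u1, u2, u3, (mS _).2 ⟨k, hk⟩⟩, uniq _ _ fun x => ?_⟩
    rw [← spec', ← hk]
  have hker : (emb S hS).range = κ.ker := by
    ext r
    rw [MonoidHom.mem_ker]
    constructor
    · rintro ⟨x, rfl⟩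
      exact uniq _ _ fun y => by rw [← spec']; simp
    · intro e
      refine mem_range_emb h S hS r ?_
      rw [← ker_glH h, MonoidHom.mem_ker]
      refine Units.ext (Matrix.toLin'.injective (LinearMap.ext fun v => ?_))
      rw [Matrix.toLin'_apply, glH_mulVec h _ ⟨v, 0⟩]
      apply b.injective
      rw [spec', e]; simp
  obtain ⟨ε, hε⟩ : ∃ ε : EB B ≃* κ.ker, ∀ x, (ε x : CG B S) = emb S hS x :=
    ⟨(MonoidHom.ofInjective (emb_inj S hS)).trans (MulEquiv.subgroupCongr hker), fun _ => rfl⟩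
  obtain ⟨e, he⟩ : ∃ e : CG B S ⧸ κ.ker ≃* K, ∀ r : CG B S, e r = κ r :=
    ⟨QuotientGroup.quotientKerEquivOfSurjective κ hsurj, fun _ => rfl⟩
  haveI : Finite U := Finite.of_equiv _ b.toEquiv
  haveI : Finite (Module.End F U) := Finite.of_injective _ DFunLike.coe_injective
  haveI : Finite K := Finite.of_injective _ hρ
  haveI : Finite κ.ker := Finite.of_equiv _ ε.toEquiv
  haveI : Finite (CG B S ⧸ κ.ker) := Finite.of_equiv _ e.toEquiv.symm
  haveI : Finite (CG B S) := Finite.of_subgroup_quotient κ.ker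
  obtain ⟨χ, hχ⟩ : ∃ χ : κ.ker →* Multiplicative U, ∀ x, χ (ε x) = Multiplicative.ofAdd (b x.v) :=
    ⟨(MonoidHom.mk' (fun x : EB B => Multiplicative.ofAdd (b x.v)) fun x y => by simp).comp
      ε.symm.toMonoidHom, fun x => by simp⟩
  refine ⟨CG B S, inferInstance, inferInstance, κ.ker, inferInstance, e, χ, ?_, ?_,
    fun u => ⟨ε ⟨b.symm u.toAdd, 0⟩, by simp [hχ]⟩, ?_, ?_, ?_⟩
  · have h1 := (xs h).map (emb_inj S hS)
    rw [← MonoidHom.range_eq_map, hker] at h1
    refine h1.es fun hc => ?_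
    have hv : (Pi.single ⟨0, by omega⟩ 1 : Fin (2 * n) → F) = 0 :=
      central h (x := ⟨Pi.single ⟨0, by omega⟩ 1, 0⟩) fun y => emb_inj S hS (by
        rw [map_mul, map_mul, ← hε, ← hε]; exact hc (ε _).2 _ (ε y).2)
    simpa using congrFun hv ⟨0, by omega⟩
  · rw [← Nat.card_congr ε.toEquiv, card_EB, Fintype.card_fin]
  · ext a
    obtain ⟨x, rfl⟩ := ε.surjective a
    rw [MonoidHom.mem_ker, hχ, Subgroup.mem_center_iff, ofAdd_eq_one, b.map_eq_zero_iff]
    constructor
    · intro hx c
      obtain ⟨y, rfl⟩ := ε.surjective c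
      rw [← map_mul ε y x, ← map_mul ε x y]
      rcases eq_one_or hx with rfl | rfl
      · rw [one_mul, mul_one]
      · rw [zz_comm]
    · intro hx
      refine central h fun y => ε.injective ?_
      rw [map_mul ε y x, map_mul ε x y]
      exact hx (ε y)
  · intro r a
    obtain ⟨x, rfl⟩ := ε.surjective a
    have : (⟨r * ε x * r⁻¹, (inferInstance : κ.ker.Normal).conj_mem _ (ε x).2 r⟩ : κ.ker) =
        ε (r.1.2 x) := Subtype.ext (by
          have := emb_conj S hS r x
          rw [← hε, ← hε] at this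
          exact this)
    rw [this, hχ, hχ, spec', he, toAdd_ofAdd]
  · intro a
    obtain ⟨x, rfl⟩ := ε.surjective a
    rw [hχ, toAdd_ofAdd, ← hB, ← map_mul ε x x, ε.map_eq_one_iff, EB.ext_iff]
    simp [vadd, CharTwo.add_self_eq_zero]

end H2.XO
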